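import Cfsg.Agent.FT.Hall

/-! `C_π` is closed under extensions (modulo the odd order theorem). -/

set_option autoImplicit false

open scoped Pointwise

namespace Cfsg.Agent.FT

open Cfsg.Agent.BG

universe u

variable {π : Set ℕ} {G : Type u} [Group G] [Finite G]

/-- conjugation version of `IsCPiGroup`, for a normal subgroup, inside the big group -/
theorem CPi_conj {A : Subgroup G} (hA : Cfsg.IsCPiGroup π ↥A) {X Y : Subgroup G} (hX : X ≤ A) (hY : Y ≤ A)
    (hXh : Cfsg.IsPiHall π (X.subgroupOf A)) (hYh : Cfsg.IsPiHall π (Y.subgroupOf A)) :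
    ∃ a ∈ A, MulAut.conj a • X = Y := by
  obtain ⟨a, ha⟩ := hA.2 _ _ hXh hYh
  refine ⟨a, a.2, ?_⟩
  have h1 : (MulAut.conj a • (X.subgroupOf A)) = Y.subgroupOf A := ha.symm
  have h2 := congrArg (Subgroup.map A.subtype) h1
  rw [conj_smul_map_subtype, Hall.map_subgroupOf_subtype hX, Hall.map_subgroupOf_subtype hY] at h2
  exact h2

theorem isPiHall_of_card {X : Subgroup G} {a b : ℕ} (h : Nat.card X = a) (hG : Nat.card G = a * b)
    (ha : ∀ p : ℕ, p.Prime → p ∣ a → p ∈ π) (hb : ∀ p : ℕ, p.Prime → p ∈ π → ¬ p ∣ b) : Cfsg.IsPiHall π X := by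
  refine ⟨by rw [h]; exact ha, ?_⟩
  have h1 : X.index = b := by
    have h2 := X.card_mul_index
    rw [h, hG] at h2
    have ha0 : 0 < a := by rw [← h]; exact Nat.card_pos
    exact Nat.eq_of_mul_eq_mul_left ha0 h2
  rw [h1]; exact hb

/-- conjugate of a Hall subgroup of a normal subgroup -/
theorem conj_hall {A : Subgroup G} [A.Normal] {X : Subgroup G} (hX : X ≤ A)
    (hXh : Cfsg.IsPiHall π (X.subgroupOf A)) (g : G) :
    MulAut.conj g • X ≤ A ∧ Cfsg.IsPiHall π ((MulAut.conj g • X).subgroupOf A) := by
  have h1 : MulAut.conj g • X ≤ A := by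
    intro x hx
    rw [Hall.mem_conj_smul] at hx
    have h2 := (inferInstance : A.Normal).conj_mem _ (hX hx) g
    have h3 : g * (g⁻¹ * x * g) * g⁻¹ = x := by group
    rwa [h3] at h2
  refine ⟨h1, ?_⟩
  have h2 : Nat.card ((MulAut.conj g • X).subgroupOf A) = Nat.card (X.subgroupOf A) := by
    rw [Nat.card_congr (Subgroup.subgroupOfEquivOfLe h1).toEquiv, Nat.card_congr (Subgroup.subgroupOfEquivOfLe hX).toEquiv,
      Hall.card_conj_smul]
  refine isPiHall_of_card h2 (b := (X.subgroupOf A).index) (Subgroup.card_mul_index _).symm hXh.1 hXh.2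

/-- For `H` a Hall `π`-subgroup of `A`, `G = A N_G(H)`. -/
theorem frattini_CPi {A : Subgroup G} [A.Normal] (hA : Cfsg.IsCPiGroup π ↥A) {H : Subgroup G} (hH : H ≤ A)
    (hHh : Cfsg.IsPiHall π (H.subgroupOf A)) (g : G) :
    ∃ a ∈ A, a⁻¹ * g ∈ Subgroup.normalizer (H : Set G) := by
  obtain ⟨h1, h2⟩ := conj_hall hH hHh g
  obtain ⟨a, ha, haX⟩ := CPi_conj hA hH h1 hHh h2
  refine ⟨a, ha, ?_⟩
  apply Cop.mem_normalizer_of_conj_smul_eq
  rw [← Hall.conj_smul_conj_smul, ← haX, Hall.conj_smul_conj_smul, inv_mul_cancel, map_one, one_smul]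

theorem CPi_ext (A : Subgroup G) [A.Normal] (hA : Cfsg.IsCPiGroup π ↥A) (hQ : Cfsg.IsCPiGroup π (G ⧸ A)) :
    Cfsg.IsCPiGroup π G := by
  constructor
  · -- existence
    obtain ⟨H0, hH0⟩ := hA.1
    obtain ⟨K, hK⟩ := hQ.1
    set H := H0.map A.subtype with hHdef
    have hHA : H ≤ A := Subgroup.map_subtype_le _
    have hHsub : H.subgroupOf A = H0 := by
      rw [hHdef]; exact Subgroup.comap_map_eq_self_of_injective A.subtype_injective H0
    have hHcard : Nat.card H = Nat.card H0 :=
      (Nat.card_congr (H0.equivMapOfInjective _ A.subtype_injective).toEquiv).symm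
    set M := K.comap (QuotientGroup.mk' A) with hM
    have hMcard := card_comap_eq (QuotientGroup.mk' A) (QuotientGroup.mk'_surjective A) K
    rw [← hM, QuotientGroup.ker_mk'] at hMcard
    have hAM : A ≤ M := by
      intro x hx
      rw [hM, Subgroup.mem_comap]
      have : QuotientGroup.mk' A x = 1 := (QuotientGroup.eq_one_iff x).2 hx
      rw [this]; exact one_mem _
    set N := M ⊓ Subgroup.normalizer (H : Set G) with hN
    have hHN : H ≤ N := le_inf (hHA.trans hAM) Subgroup.le_normalizer
    have hHn : (H.subgroupOf N).Normal := by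
      constructor
      intro x hx y
      exact (Subgroup.mem_normalizer_iff.1 y.2.2 (x : G)).1 hx
    -- the quotient N/H
    set f := QuotientGroup.mk' (H.subgroupOf N) with hf
    have hfs : Function.Surjective f := QuotientGroup.mk'_surjective _
    set NA := (A.subgroupOf N) with hNA
    have hHNA : H.subgroupOf N ≤ NA := by
      intro x hx; exact hHA hx
    have hNAn : NA.Normal := by
      rw [hNA]; infer_instance
    have hmapn : (NA.map f).Normal := hNAn.map f hfs
    -- cardinalities
    have hsup : N ⊔ A = M := by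
      apply le_antisymm (sup_le inf_le_left hAM)
      intro m hm
      obtain ⟨a, ha, han⟩ := frattini_CPi hA hHA (by rw [hHsub]; exact hH0) m
      have h1 : m = a * (a⁻¹ * m) := by group
      rw [h1]
      exact mul_mem (Subgroup.mem_sup_right ha)
        (Subgroup.mem_sup_left (Subgroup.mem_inf.2 ⟨M.mul_mem (M.inv_mem (hAM ha)) hm, han⟩))
    have hNAidx : NA.index = Nat.card K := by
      have h1 := Solv.mul_card_sup_of_normal N A
      rw [hsup, hMcard] at h1
      have h2 : Nat.card NA = Nat.card (N ⊓ A : Subgroup G) := by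
        rw [hNA]
        have : Nat.card (A.subgroupOf N) = Nat.card ((A.subgroupOf N).map N.subtype) :=
          Nat.card_congr ((A.subgroupOf N).equivMapOfInjective _ N.subtype_injective).toEquiv
        rw [this, Subgroup.subgroupOf_map_subtype, inf_comm]
      have h3 := NA.card_mul_index
      rw [h2] at h3
      have h4 : Nat.card (N ⊓ A : Subgroup G) * NA.index = Nat.card (N ⊓ A : Subgroup G) * Nat.card K := by
        rw [h3]
        have h5 : Nat.card A * Nat.card K * Nat.card (N ⊓ A : Subgroup G) = Nat.card N * Nat.card A := h1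
        have h6 : Nat.card A * (Nat.card (N ⊓ A : Subgroup G) * Nat.card K) = Nat.card A * Nat.card N := by
          linarith
        exact (Nat.eq_of_mul_eq_mul_left Nat.card_pos h6).symm
      exact Nat.eq_of_mul_eq_mul_left Nat.card_pos h4
    have hmapidx : (NA.map f).index = Nat.card K := by
      rw [Subgroup.index_map, hf, QuotientGroup.ker_mk', sup_eq_left.2 hHNA, hNAidx,
        MonoidHom.range_eq_top.2 (QuotientGroup.mk'_surjective _), Subgroup.index_top, mul_one]
    have hmapcard : ∀ p : ℕ, p.Prime → p ∈ π → ¬ p ∣ Nat.card (NA.map f) := by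
      intro p hp hpi hd
      -- |NA.map f| * |H| = |NA| divides |A|
      have h1 := card_comap_eq f hfs (NA.map f)
      rw [hf, QuotientGroup.ker_mk', ← hf, Subgroup.comap_map_eq, hf, QuotientGroup.ker_mk', sup_eq_left.2 hHNA, ← hf] at h1
      have h2 : Nat.card (H.subgroupOf N) = Nat.card H :=
        Nat.card_congr (Subgroup.subgroupOfEquivOfLe hHN).toEquiv
      have h3 : Nat.card NA ∣ Nat.card A := by
        have : Nat.card (A.subgroupOf N) = Nat.card ((A.subgroupOf N).map N.subtype) :=
          Nat.card_congr ((A.subgroupOf N).equivMapOfInjective _ N.subtype_injective).toEquiv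
        rw [hNA, this, Subgroup.subgroupOf_map_subtype]
        exact Subgroup.card_dvd_of_le inf_le_left
      rw [h1, h2, hHcard, ← H0.card_mul_index] at h3
      have h4 : Nat.card (NA.map f) ∣ H0.index := Nat.dvd_of_mul_dvd_mul_left Nat.card_pos h3
      exact hH0.2 p hp hpi (hd.trans h4)
    obtain ⟨C, hC⟩ := Subgroup.exists_right_complement'_of_coprime (N := NA.map f) (by
      rw [hmapidx]
      exact (coprime_of_pi (π := π) hK.1 hmapcard).symm)
    have hCcard : Nat.card C = Nat.card K := by rw [← hmapidx]; exact hC.symm.index_eq_card.symm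
    set L := (C.comap f).map N.subtype with hL
    have hLcard : Nat.card L = Nat.card H0 * Nat.card K := by
      rw [hL, ← Nat.card_congr ((C.comap f).equivMapOfInjective _ N.subtype_injective).toEquiv,
        card_comap_eq f hfs C, hf, QuotientGroup.ker_mk', hCcard,
        Nat.card_congr (Subgroup.subgroupOfEquivOfLe hHN).toEquiv, hHcard]
    refine ⟨L, isPiHall_of_card hLcard (b := H0.index * K.index) ?_ ?_ ?_⟩
    · have h1 := H0.card_mul_index
      have h2 := K.card_mul_index
      have h3 := A.card_mul_index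
      rw [Subgroup.index_eq_card, ← h2, ← h1] at h3
      rw [← h3]; ring
    · intro p hp hd
      rcases (hp.dvd_mul).1 hd with h | h
      · exact hH0.1 p hp h
      · exact hK.1 p hp h
    · intro p hp hpi hd
      rcases (hp.dvd_mul).1 hd with h | h
      · exact hH0.2 p hp hpi h
      · exact hK.2 p hp hpi h
  · -- conjugacy
    intro X Y hX hY
    have hXm := IsPiHall.map_surjective hX (QuotientGroup.mk' A) (QuotientGroup.mk'_surjective A)
    have hYm := IsPiHall.map_surjective hY (QuotientGroup.mk' A) (QuotientGroup.mk'_surjective A)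
    obtain ⟨q, hq⟩ := hQ.2 _ _ hXm hYm
    obtain ⟨g, rfl⟩ := QuotientGroup.mk'_surjective A q
    -- step 1: same image
    have h1 : (MulAut.conj g • X).map (QuotientGroup.mk' A) = Y.map (QuotientGroup.mk' A) := by
      rw [Hall.map_conj_smul]; exact hq.symm
    suffices h : ∀ X : Subgroup G, Cfsg.IsPiHall π X → X.map (QuotientGroup.mk' A) = Y.map (QuotientGroup.mk' A) →
        ∃ g : G, Y = MulAut.conj g • X by
      obtain ⟨k, hk⟩ := h _ (isPiHall_conj hX g) h1
      refine ⟨k * g, ?_⟩
      rw [hk, Hall.conj_smul_conj_smul]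
      rfl
    clear h1 hq hXm hX X g
    intro X hX hXY
    -- step 2: same intersection with A
    suffices h : ∀ X : Subgroup G, Cfsg.IsPiHall π X → X.map (QuotientGroup.mk' A) = Y.map (QuotientGroup.mk' A) →
        X ⊓ A = Y ⊓ A → ∃ g : G, Y = MulAut.conj g • X by
      have hXA := IsPiHall.inf_normal hX A
      have hYA := IsPiHall.inf_normal hY A
      obtain ⟨a, ha, haXY⟩ := CPi_conj hA (X := X ⊓ A) (Y := Y ⊓ A) inf_le_right inf_le_right
        (by rw [Subgroup.inf_subgroupOf_right]; exact hXA) (by rw [Subgroup.inf_subgroupOf_right]; exact hYA)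
      obtain ⟨k, hk⟩ := h (MulAut.conj a • X) (isPiHall_conj hX a) (by
        rw [Hall.map_conj_smul]
        have : QuotientGroup.mk' A a = 1 := (QuotientGroup.eq_one_iff a).2 ha
        rw [this, map_one, one_smul, hXY]) (by
        rw [← haXY]
        ext x
        rw [Subgroup.mem_inf, Hall.mem_conj_smul, Hall.mem_conj_smul, Subgroup.mem_inf]
        constructor
        · rintro ⟨h1, h2⟩
          exact ⟨h1, by
            have := (inferInstance : A.Normal).conj_mem x h2 a⁻¹
            rwa [inv_inv] at this⟩
        · rintro ⟨h1, h2⟩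
          refine ⟨h1, ?_⟩
          have := (inferInstance : A.Normal).conj_mem _ h2 a
          have h3 : a * (a⁻¹ * x * a) * a⁻¹ = x := by group
          rwa [h3] at this)
      exact ⟨k * a, by rw [hk, Hall.conj_smul_conj_smul]⟩
    clear hXY hX X
    intro X hX hXY hXYA
    set H := X ⊓ A with hH
    have hXN : X ≤ Subgroup.normalizer (H : Set G) :=
      (le_inf Subgroup.le_normalizer (by rw [Subgroup.normalizer_eq_top]; exact le_top)).trans
        (Subgroup.inf_normalizer_le_normalizer_inf (H := X) (K := A))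
    have hYN : Y ≤ Subgroup.normalizer (H : Set G) := by
      rw [hXYA]
      exact (le_inf Subgroup.le_normalizer (by rw [Subgroup.normalizer_eq_top]; exact le_top)).trans
        (Subgroup.inf_normalizer_le_normalizer_inf (H := Y) (K := A))
    -- work in N(H)/H
    set N := Subgroup.normalizer (H : Set G) with hN
    have hHN : H ≤ N := Subgroup.le_normalizer
    have hHn : (H.subgroupOf N).Normal := by
      constructor
      intro x hx y
      exact (Subgroup.mem_normalizer_iff.1 y.2 (x : G)).1 hx
    set f := QuotientGroup.mk' (H.subgroupOf N) with hf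
    have hfs : Function.Surjective f := QuotientGroup.mk'_surjective _
    have hfker : f.ker = H.subgroupOf N := QuotientGroup.ker_mk' _
    set A' := (A.subgroupOf N).map f with hA'
    have hA'n : A'.Normal := (inferInstance : (A.subgroupOf N).Normal).map f hfs
    set X' := (X.subgroupOf N).map f with hX'
    set Y' := (Y.subgroupOf N).map f with hY'
    have hcardmap : ∀ Z : Subgroup G, H ≤ Z → Z ≤ N → Nat.card Z = Nat.card H * Nat.card ((Z.subgroupOf N).map f) := by
      intro Z hHZ hZN
      have h1 := card_comap_eq f hfs ((Z.subgroupOf N).map f)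
      have h2 : ((Z.subgroupOf N).map f).comap f = Z.subgroupOf N := by
        rw [Subgroup.comap_map_eq, hfker, sup_eq_left]
        intro x hx; exact hHZ hx
      rw [h2, hfker, Nat.card_congr (Subgroup.subgroupOfEquivOfLe hZN).toEquiv,
        Nat.card_congr (Subgroup.subgroupOfEquivOfLe hHN).toEquiv] at h1
      exact h1
    have hHX : H ≤ X := inf_le_left
    have hHY : H ≤ Y := by rw [hXYA]; exact inf_le_left
    have hcX := hcardmap X hHX hXN
    have hcY := hcardmap Y hHY hYN
    have hcXY : Nat.card X = Nat.card Y := by rw [card_eq_piPart hX, card_eq_piPart hY]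
    have hX'Y' : Nat.card Y' = Nat.card X' := by
      rw [hcX, hcY] at hcXY
      exact (Nat.eq_of_mul_eq_mul_left Nat.card_pos hcXY).symm
    have hX'p : ∀ p : ℕ, p.Prime → p ∣ Nat.card X' → p ∈ π := by
      intro p hp hd
      apply hX.1 p hp
      rw [hcX]; exact hd.trans (Dvd.intro_left _ rfl)
    have hA'p : ∀ p : ℕ, p.Prime → p ∈ π → ¬ p ∣ Nat.card A' := by
      intro p hp hpi hd
      have hXA := IsPiHall.inf_normal hX A
      apply hXA.2 p hp hpi
      -- |A'| |H| = |A ∩ N| , |H| index = |A|
      have h1 := card_comap_eq f hfs A'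
      have h2 : A'.comap f = A.subgroupOf N := by
        rw [hA', Subgroup.comap_map_eq, hfker, sup_eq_left]
        intro x hx; exact (inf_le_right : X ⊓ A ≤ A) hx
      rw [h2, hfker, Nat.card_congr (Subgroup.subgroupOfEquivOfLe hHN).toEquiv] at h1
      have h3 : Nat.card (A.subgroupOf N) ∣ Nat.card A := by
        have : Nat.card (A.subgroupOf N) = Nat.card ((A.subgroupOf N).map N.subtype) :=
          Nat.card_congr ((A.subgroupOf N).equivMapOfInjective _ N.subtype_injective).toEquiv
        rw [this, Subgroup.subgroupOf_map_subtype]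
        exact Subgroup.card_dvd_of_le inf_le_left
      have h4 : Nat.card (X.subgroupOf A) = Nat.card H := by
        have : Nat.card (X.subgroupOf A) = Nat.card ((X.subgroupOf A).map A.subtype) :=
          Nat.card_congr ((X.subgroupOf A).equivMapOfInjective _ A.subtype_injective).toEquiv
        rw [this, Subgroup.subgroupOf_map_subtype]
      rw [h1, ← (X.subgroupOf A).card_mul_index, h4] at h3
      exact hd.trans (Nat.dvd_of_mul_dvd_mul_left Nat.card_pos h3)
    have hle : Y' ≤ A' ⊔ X' := by
      rw [hA', hX', ← Subgroup.map_sup, hY']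
      apply Subgroup.map_mono
      intro y hy
      have h1 : QuotientGroup.mk' A (y : G) ∈ X.map (QuotientGroup.mk' A) := by
        rw [hXY]; exact ⟨y, hy, rfl⟩
      obtain ⟨x, hx, hxy⟩ := h1
      have h2 : (y : G) * x⁻¹ ∈ A := by
        have h3 : QuotientGroup.mk' A ((y : G) * x⁻¹) = 1 := by
          rw [map_mul, map_inv, hxy, mul_inv_cancel]
        exact (QuotientGroup.eq_one_iff _).1 h3
      have h3 : y = (y * (⟨x, hXN hx⟩ : N)⁻¹) * (⟨x, hXN hx⟩ : N) := by group
      rw [h3]
      exact mul_mem (Subgroup.mem_sup_left (by exact h2)) (Subgroup.mem_sup_right (by exact hx))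
    obtain ⟨n, hn, hn'⟩ := sz_rel (N := A') (A := X') (B := Y')
      (by rw [Subgroup.normalizer_eq_top]; exact le_top) hle hX'Y' (coprime_of_pi (π := π) hX'p hA'p).symm
    obtain ⟨m, rfl⟩ := hfs n
    refine ⟨m, ?_⟩
    -- conj m • X ≥ H and same image
    have h5 : (MulAut.conj m • (X.subgroupOf N)) = Y.subgroupOf N := by
      have h6 : (MulAut.conj m • (X.subgroupOf N)).map f = Y' := by
        rw [Hall.map_conj_smul]; exact hn'
      have h7 : ((MulAut.conj m • (X.subgroupOf N)).map f).comap f = MulAut.conj m • (X.subgroupOf N) := by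
        rw [Subgroup.comap_map_eq, hfker, sup_eq_left]
        intro x hx
        rw [Hall.mem_conj_smul]
        have h8 := hHn.conj_mem x hx m⁻¹
        rw [inv_inv] at h8
        exact hHX h8
      have h8 : Y'.comap f = Y.subgroupOf N := by
        rw [hY', Subgroup.comap_map_eq, hfker, sup_eq_left]
        intro x hx; exact hHY hx
      rw [← h7, h6, h8]
    have h6 := congrArg (Subgroup.map N.subtype) h5
    rw [conj_smul_map_subtype, Hall.map_subgroupOf_subtype hXN, Hall.map_subgroupOf_subtype hYN] at h6
    exact h6.symm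

end Cfsg.Agent.FT
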