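import Cfsg.Agent.Frob.Nested
import Cfsg.Agent.Frob.Center
import Cfsg.Agent.FC.Struct3

/-!
Order types of Frobenius groups: counting elements of given order (towards S3999).
-/

set_option autoImplicit false
set_option linter.unusedSectionVars false

namespace Cfsg.Agent.FT

open scoped Pointwise
open Cfsg Cfsg.Agent.Frob

universe u v

theorem ord_conj {G : Type u} [Group G] (g x : G) : orderOf (g * x * g⁻¹) = orderOf x := by
  have := orderOf_injective (MulAut.conj g).toMonoidHom (MulAut.conj g).injective x
  simpa using this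

/-- groups of the same order type: an order preserving bijection -/
theorem exists_equiv_order {F : Type u} {G : Type v} [Group F] [Finite F] [Group G] [Finite G]
    (hT : ∀ m : ℕ, Nat.card {g : F // orderOf g = m} = Nat.card {h : G // orderOf h = m}) :
    ∃ e : F ≃ G, ∀ x, orderOf (e x) = orderOf x := by
  classical
  let a : ∀ m : ℕ, {g : F // orderOf g = m} ≃ {h : G // orderOf h = m} := fun m => Classical.choice (Finite.card_eq.mp (hT m))
  refine ⟨((Equiv.sigmaFiberEquiv (fun g : F => orderOf g)).symm.trans (Equiv.sigmaCongrRight a)).trans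
    (Equiv.sigmaFiberEquiv (fun h : G => orderOf h)), ?_⟩
  intro x
  exact (a (orderOf x) ⟨x, rfl⟩).2

variable {F : Type u} [Group F] [Finite F]

/-- counting elements outside the Frobenius kernel by order -/
theorem card_order_eq {C : Subgroup F} (hC : IsFrobeniusComplement C) (P : ℕ → Prop)
    (hP : ∀ x : F, x ∈ frobeniusKernel C → ¬ P (orderOf x)) :
    Nat.card {x : F // P (orderOf x)} = C.index * Nat.card {c : C // P (orderOf c)} := by
  classical
  have hP1 : ¬ P 1 := by
    have := hP 1 (one_mem_frobeniusKernel C)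
    rwa [orderOf_one] at this
  let f : (F ⧸ C) × {c : C // P (orderOf c)} → {x : F // P (orderOf x)} := fun p =>
    ⟨(Quotient.out p.1) * (p.2.1 : F) * (Quotient.out p.1)⁻¹, by
      rw [ord_conj, Subgroup.orderOf_coe]; exact p.2.2⟩
  have hf : Function.Bijective f := by
    constructor
    · rintro ⟨a, h, h1⟩ ⟨b, k, k1⟩ hab
      simp only [f, Subtype.mk.injEq] at hab
      have hh1 : (h : F) ≠ 1 := by
        intro h0
        apply hP1
        have : h = 1 := by exact_mod_cast h0
        rwa [this, orderOf_one] at h1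
      have h3 : (b.out⁻¹ * a.out) * (h : F) * (b.out⁻¹ * a.out)⁻¹ = k := by
        have : (b.out⁻¹ * a.out) * (h : F) * (b.out⁻¹ * a.out)⁻¹ =
          b.out⁻¹ * (a.out * (h : F) * a.out⁻¹) * b.out := by group
        rw [this, hab]; group
      have h4 : b.out⁻¹ * a.out ∈ C :=
        mem_of_conj_mem hC h.2 hh1 (by rw [h3]; exact k.2)
      have h5 : a = b := by
        rw [← QuotientGroup.out_eq' a, ← QuotientGroup.out_eq' b]
        exact (QuotientGroup.eq.mpr h4).symm
      subst h5
      simp only [inv_mul_cancel, one_mul, inv_one, mul_one] at h3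
      simp only [Prod.mk.injEq, Subtype.mk.injEq, true_and]
      exact_mod_cast h3
    · rintro ⟨x, hx⟩
      have hxK : x ∉ frobeniusKernel C := fun h => hP x h hx
      rw [not_mem_frobeniusKernel_iff] at hxK
      obtain ⟨hx1, g, hg⟩ := hxK
      obtain ⟨k, hk⟩ := QuotientGroup.mk_out_eq_mul C g
      have hk' : (Quotient.out (g : F ⧸ C)) = g * (k : F) := hk
      refine ⟨⟨(g : F ⧸ C), ⟨(k⁻¹ * ⟨g⁻¹ * x * g, hg⟩ * k : C), ?_⟩⟩, ?_⟩
      · have h1 : orderOf (k⁻¹ * ⟨g⁻¹ * x * g, hg⟩ * k : C) = orderOf x := by
          rw [← Subgroup.orderOf_coe]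
          push_cast
          have : ((k : F)⁻¹ * (g⁻¹ * x * g) * (k : F)) = ((g * k : F)⁻¹) * x * ((g * k : F)⁻¹)⁻¹ := by group
          rw [this, ord_conj]
        rw [h1]; exact hx
      · simp only [f, Subtype.mk.injEq]
        push_cast
        rw [hk']; group
  rw [← Nat.card_congr (Equiv.ofBijective f hf), Nat.card_prod]
  rfl

/-- elements of a Frobenius group lie in the kernel or have order dividing that of the complement -/
theorem order_dvd {C : Subgroup F} (hC : IsFrobeniusComplement C) (x : F) :
    (x ∈ frobeniusKernel C ∧ orderOf x ∣ C.index) ∨ (x ∉ frobeniusKernel C ∧ orderOf x ∣ Nat.card C) := by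
  by_cases hx : x ∈ frobeniusKernel C
  · left
    refine ⟨hx, ?_⟩
    obtain ⟨N, hN, hNn, hNC⟩ := exists_normal_complement hC
    have hxN : x ∈ N := by
      have : x ∈ (N : Set F) := by rw [hN]; exact hx
      exact this
    have h1 := orderOf_dvd_natCard (⟨x, hxN⟩ : N)
    rw [Subgroup.orderOf_mk] at h1
    have h2 : Nat.card N = C.index := by
      rw [← card_frobeniusKernel hC, ← hN]
      rfl
    rwa [h2] at h1
  · right
    refine ⟨hx, ?_⟩
    rw [not_mem_frobeniusKernel_iff] at hx
    obtain ⟨hx1, g, hg⟩ := hx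
    have h1 := orderOf_dvd_natCard (⟨g⁻¹ * x * g, hg⟩ : C)
    rw [Subgroup.orderOf_mk] at h1
    have : g⁻¹ * x * g = g⁻¹ * x * g⁻¹⁻¹ := by group
    rwa [this, ord_conj] at h1

/-- an order not dividing the index is not that of an element of the kernel -/
theorem not_mem_kernel {C : Subgroup F} (hC : IsFrobeniusComplement C) {x : F}
    (h : ¬ (orderOf x).Coprime (Nat.card C)) : x ∉ frobeniusKernel C := by
  intro hx
  apply h
  rcases order_dvd hC x with ⟨-, h1⟩ | ⟨h1, -⟩
  · exact Nat.Coprime.coprime_dvd_left h1 (coprime_card_index hC).symm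
  · exact (h1 hx).elim

theorem mem_of_coprime_index {X : Type u} [Group X] {C : Subgroup X} [C.Normal] [Finite X] {x : X}
    (h : (orderOf x).Coprime C.index) : x ∈ C := by
  have h1 : orderOf (QuotientGroup.mk' C x) ∣ orderOf x := orderOf_map_dvd (QuotientGroup.mk' C) x
  have h2 : orderOf (QuotientGroup.mk' C x) ∣ C.index := orderOf_dvd_natCard _
  have h3 : orderOf (QuotientGroup.mk' C x) = 1 := Nat.eq_one_of_dvd_coprimes h h1 h2
  rw [orderOf_eq_one_iff] at h3
  exact (QuotientGroup.eq_one_iff x).1 h3

/-- in a group of odd order with a fixed-point-free module, subgroups of prime order are normal -/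
theorem normal_of_prime_order {X : Type u} [Group X] [Finite X] (h : HasFPFModule X)
    (hodd : Odd (Nat.card X)) {B : Subgroup X} (hB : (Nat.card B).Prime) : B.Normal := by
  have hz := Cfsg.Agent.FC.zgroup_of_odd h hodd
  have hcyc : IsCyclic (commutator X) := IsZGroup.isCyclic_commutator X
  have hcop := IsZGroup.coprime_commutator_index X
  have := Fact.mk hB
  obtain ⟨b, hb⟩ := exists_prime_orderOf_dvd_card' (G := B) (Nat.card B) dvd_rfl
  have hbo : orderOf (b : X) = Nat.card B := by rw [Subgroup.orderOf_coe, hb]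
  have hBz : Subgroup.zpowers (b : X) = B := by
    apply Subgroup.eq_of_le_of_card_ge
    · rw [Subgroup.zpowers_le]; exact b.2
    · rw [Nat.card_zpowers, hbo]
  by_cases hqc : Nat.card B ∣ Nat.card (commutator X)
  · have hle : B ≤ commutator X := by
      intro x hx
      apply mem_of_coprime_index
      refine Nat.Coprime.coprime_dvd_left ?_ (Nat.Coprime.coprime_dvd_left hqc hcop)
      have := orderOf_dvd_natCard (⟨x, hx⟩ : B)
      rwa [Subgroup.orderOf_mk] at this
    constructor
    intro x hx g
    have hle2 : MulAut.conj g • B ≤ commutator X := by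
      intro y hy
      rw [mem_conj_smul] at hy
      have := (inferInstance : (commutator X).Normal).conj_mem _ (hle hy) g
      have e : g * (g⁻¹ * y * g) * g⁻¹ = y := by group
      rwa [e] at this
    have h1 : (B.subgroupOf (commutator X)) = ((MulAut.conj g • B).subgroupOf (commutator X)) := by
      apply Cfsg.Agent.Frob.eq_of_card_eq_of_isCyclic
      rw [Nat.card_congr (Subgroup.subgroupOfEquivOfLe hle).toEquiv, Nat.card_congr (Subgroup.subgroupOfEquivOfLe hle2).toEquiv,
        Nat.card_congr (Subgroup.equivSMul (MulAut.conj g) B).toEquiv.symm]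
    rw [Subgroup.subgroupOf_inj, inf_eq_left.2 hle, inf_eq_left.2 hle2] at h1
    rw [h1, mem_conj_smul]
    have e : g⁻¹ * (g * x * g⁻¹) * g = x := by group
    rwa [e]
  · obtain ⟨⟨c, hcC⟩, hc⟩ := hcyc.exists_generator
    have hcz : Subgroup.zpowers c = commutator X := by
      apply le_antisymm
      · rw [Subgroup.zpowers_le]; exact hcC
      · intro x hx
        obtain ⟨i, hi⟩ := Subgroup.mem_zpowers_iff.mp (hc ⟨x, hx⟩)
        rw [Subgroup.mem_zpowers_iff]
        exact ⟨i, congrArg Subtype.val hi⟩
    have hqc' : ¬ Nat.card B ∣ orderOf c := by rwa [← Nat.card_zpowers, hcz]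
    have hn : (b : X) ∈ Subgroup.normalizer (Subgroup.zpowers c : Set X) := by
      rw [hcz, Subgroup.normalizer_eq_top]; trivial
    have hbc := h.commute_of_normalizes' hB hbo hqc' hn
    have hbz : ∀ z ∈ commutator X, Commute (b : X) z := by
      intro z hz
      rw [← hcz] at hz
      obtain ⟨i, rfl⟩ := Subgroup.mem_zpowers_iff.mp hz
      exact (show Commute (b : X) c from hbc).zpow_right i
    have hcen : ∀ g : X, g * (b : X) * g⁻¹ = b := by
      intro g
      have hzC : g * (b : X) * g⁻¹ * (b : X)⁻¹ ∈ commutator X :=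
        Subgroup.commutator_mem_commutator (Subgroup.mem_top g) (Subgroup.mem_top (b : X))
      set z := g * (b : X) * g⁻¹ * (b : X)⁻¹ with hzdef
      have h1 : g * (b : X) * g⁻¹ = z * b := by rw [hzdef]; group
      have h2 : (z * b) ^ Nat.card B = z ^ Nat.card B * (b : X) ^ Nat.card B :=
        (hbz z hzC).symm.mul_pow _
      have h3 : (b : X) ^ Nat.card B = 1 := by rw [← hbo]; exact pow_orderOf_eq_one _
      have h4 : (g * (b : X) * g⁻¹) ^ Nat.card B = 1 := by rw [conj_pow, h3]; group
      rw [h1, h2, h3, mul_one] at h4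
      have h5 : orderOf z ∣ Nat.card B := orderOf_dvd_of_pow_eq_one h4
      have h6 : orderOf z ∣ Nat.card (commutator X) := by
        have := orderOf_dvd_natCard (⟨z, hzC⟩ : commutator X)
        rwa [Subgroup.orderOf_mk] at this
      have h7 : orderOf z = 1 :=
        Nat.eq_one_of_dvd_coprimes ((Nat.Prime.coprime_iff_not_dvd hB).2 hqc) h5 h6
      rw [orderOf_eq_one_iff] at h7
      rw [h1, h7, one_mul]
    constructor
    intro x hx g
    rw [← hBz] at hx ⊢
    obtain ⟨i, rfl⟩ := Subgroup.mem_zpowers_iff.mp hx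
    rw [← conj_zpow, hcen]
    exact Subgroup.zpow_mem _ (Subgroup.mem_zpowers _) i

end Cfsg.Agent.FT
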