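import Cfsg.Agent.FT.OrdA

/-!
Groups with the order type of a Frobenius group with complement of odd order.
-/

set_option autoImplicit false
set_option linter.unusedSectionVars false

namespace Cfsg.Agent.FT

open scoped Pointwise
open Cfsg Cfsg.Agent.Frob

universe u v

section general

variable {X : Type u} [Group X] [Finite X]

theorem card_ne_one (A : Subgroup X) : Nat.card {a : A // a ≠ 1} = Nat.card A - 1 := by
  classical
  have := Fintype.ofFinite A
  rw [Nat.card_eq_fintype_card, Nat.card_eq_fintype_card, Fintype.card_subtype_compl]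
  simp

theorem orderOf_of_mem_prime {q : ℕ} (hq : q.Prime) {A : Subgroup X} (hA : Nat.card A = q) {x : X}
    (hx : x ∈ A) (h1 : x ≠ 1) : orderOf x = q := by
  have h2 := orderOf_dvd_natCard (⟨x, hx⟩ : A)
  rw [Subgroup.orderOf_mk, hA] at h2
  rcases (Nat.dvd_prime hq).1 h2 with h | h
  · exact (h1 (orderOf_eq_one_iff.1 h)).elim
  · exact h

theorem zpowers_eq_of_mem_prime {q : ℕ} (hq : q.Prime) {A : Subgroup X} (hA : Nat.card A = q) {x : X}
    (hx : x ∈ A) (h1 : x ≠ 1) : Subgroup.zpowers x = A := by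
  apply Subgroup.eq_of_le_of_card_ge
  · rw [Subgroup.zpowers_le]; exact hx
  · rw [Nat.card_zpowers, orderOf_of_mem_prime hq hA hx h1, hA]

/-- elements of prime order are counted by subgroups of prime order -/
theorem card_prime_order {q : ℕ} (hq : q.Prime) :
    Nat.card {x : X // orderOf x = q} = Nat.card {A : Subgroup X // Nat.card A = q} * (q - 1) := by
  classical
  let f : (Σ A : {A : Subgroup X // Nat.card A = q}, {a : A.1 // a ≠ 1}) → {x : X // orderOf x = q} := fun p =>
    ⟨(p.2.1 : X), orderOf_of_mem_prime hq p.1.2 p.2.1.2 (fun h => p.2.2 (by exact_mod_cast h))⟩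
  have hf : Function.Bijective f := by
    constructor
    · rintro ⟨⟨A, hA⟩, ⟨⟨a, ha⟩, ha1⟩⟩ ⟨⟨B, hB⟩, ⟨⟨b, hb⟩, hb1⟩⟩ hab
      simp only [f, Subtype.mk.injEq] at hab
      subst hab
      have h1 : a ≠ 1 := fun h => ha1 (Subtype.ext h)
      have h2 : A = B := by
        rw [← zpowers_eq_of_mem_prime hq hA ha h1, ← zpowers_eq_of_mem_prime hq hB hb h1]
      subst h2
      rfl
    · rintro ⟨x, hx⟩
      refine ⟨⟨⟨Subgroup.zpowers x, by rw [Nat.card_zpowers, hx]⟩, ⟨⟨x, Subgroup.mem_zpowers x⟩, ?_⟩⟩, rfl⟩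
      intro h
      have : x = 1 := congrArg Subtype.val h
      rw [this, orderOf_one] at hx
      exact hq.one_lt.ne hx
  haveI : Fintype {A : Subgroup X // Nat.card A = q} := Fintype.ofFinite _
  rw [← Nat.card_congr (Equiv.ofBijective f hf), Nat.card_sigma]
  rw [Finset.sum_congr rfl (fun A _ => by rw [card_ne_one, A.2])]
  rw [Finset.sum_const, smul_eq_mul, Nat.card_eq_fintype_card]
  rfl

/-- elements of order `qr` -/
theorem card_order_mul {q r : ℕ} (hq : q.Prime) (hr : r.Prime) (hqr : q ≠ r) :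
    Nat.card {z : X // orderOf z = q * r} =
      Nat.card {p : X × X // orderOf p.1 = q ∧ orderOf p.2 = r ∧ Commute p.1 p.2} := by
  have hcop : Nat.Coprime q r := (Nat.coprime_primes hq hr).2 hqr
  obtain ⟨a, haq, har⟩ := Nat.chineseRemainder hcop 1 0
  obtain ⟨b, hbq, hbr⟩ := Nat.chineseRemainder hcop 0 1
  have hab : a + b ≡ 1 [MOD q * r] := by
    rw [← Nat.modEq_and_modEq_iff_modEq_mul hcop]
    exact ⟨by simpa using haq.add hbq, by simpa using har.add hbr⟩
  symm
  refine Nat.card_congr ⟨fun p => ⟨p.1.1 * p.1.2, ?_⟩, fun z => ⟨(z.1 ^ a, z.1 ^ b), ?_, ?_, ?_⟩, ?_, ?_⟩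
  · rw [p.2.2.2.orderOf_mul_eq_mul_orderOf_of_coprime (by rw [p.2.1, p.2.2.1]; exact hcop), p.2.1, p.2.2.1]
  · haveI := Fact.mk hq
    apply orderOf_eq_prime
    · change (z.1 ^ a) ^ q = 1
      rw [← pow_mul]
      apply orderOf_dvd_iff_pow_eq_one.1
      rw [z.2, mul_comm a q]
      exact Nat.mul_dvd_mul_left q ((Nat.modEq_zero_iff_dvd).1 har)
    · change z.1 ^ a ≠ 1
      intro h
      have h1 := orderOf_dvd_of_pow_eq_one h
      rw [z.2] at h1
      have h2 : q ∣ a := (Dvd.intro r rfl).trans h1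
      have h3 : a ≡ 0 [MOD q] := (Nat.modEq_zero_iff_dvd).2 h2
      have h4 := haq.symm.trans h3
      have h5 := (Nat.modEq_zero_iff_dvd).1 h4
      exact hq.one_lt.ne' (Nat.dvd_one.1 h5)
  · haveI := Fact.mk hr
    apply orderOf_eq_prime
    · change (z.1 ^ b) ^ r = 1
      rw [← pow_mul]
      apply orderOf_dvd_iff_pow_eq_one.1
      rw [z.2]
      exact Nat.mul_dvd_mul_right ((Nat.modEq_zero_iff_dvd).1 hbq) r
    · change z.1 ^ b ≠ 1
      intro h
      have h1 := orderOf_dvd_of_pow_eq_one h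
      rw [z.2] at h1
      have h2 : r ∣ b := (Dvd.intro_left q rfl).trans h1
      have h3 : b ≡ 0 [MOD r] := (Nat.modEq_zero_iff_dvd).2 h2
      have h4 := hbr.symm.trans h3
      have h5 := (Nat.modEq_zero_iff_dvd).1 h4
      exact hr.one_lt.ne' (Nat.dvd_one.1 h5)
  · exact (Commute.refl z.1).pow_pow a b
  · rintro ⟨⟨x, y⟩, hx, hy, hc⟩
    simp only at hx hy hc ⊢
    apply Subtype.ext
    simp only [Prod.mk.injEq]
    rw [hc.mul_pow, hc.mul_pow]
    have h1 : x ^ a = x := by
      conv_rhs => rw [← pow_one x]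
      rw [pow_eq_pow_iff_modEq, hx]; exact haq
    have h2 : y ^ a = 1 := by
      apply orderOf_dvd_iff_pow_eq_one.1
      rw [hy]; exact (Nat.modEq_zero_iff_dvd).1 har
    have h3 : x ^ b = 1 := by
      apply orderOf_dvd_iff_pow_eq_one.1
      rw [hx]; exact (Nat.modEq_zero_iff_dvd).1 hbq
    have h4 : y ^ b = y := by
      conv_rhs => rw [← pow_one y]
      rw [pow_eq_pow_iff_modEq, hy]; exact hbr
    rw [h1, h2, h3, h4]
    simp
  · rintro ⟨z, hz⟩
    apply Subtype.ext
    change z ^ a * z ^ b = z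
    rw [← pow_add]
    conv_rhs => rw [← pow_one z]
    rw [pow_eq_pow_iff_modEq, hz]
    exact hab

/-- subgroups of prime order are conjugate when Sylow subgroups are cyclic -/
theorem conj_of_cyclic_sylow {q : ℕ} [hq : Fact q.Prime] (P : Sylow q X) [hP : IsCyclic P]
    (A B : Subgroup X) (hA : Nat.card A = q) (hB : Nat.card B = q) :
    ∃ g : X, MulAut.conj g • A = B := by
  have key : ∀ A : Subgroup X, Nat.card A = q → ∃ g : X, MulAut.conj g • A ≤ (P : Subgroup X) := by
    intro A hA
    have hAp : IsPGroup q A := IsPGroup.of_card (n := 1) (by rw [hA, pow_one])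
    obtain ⟨Q, hQ⟩ := hAp.exists_le_sylow
    obtain ⟨g, hg⟩ := MulAction.exists_smul_eq X Q P
    refine ⟨g, ?_⟩
    rw [← hg]
    exact Subgroup.pointwise_smul_le_pointwise_smul_iff.2 hQ
  obtain ⟨g, hg⟩ := key A hA
  obtain ⟨k, hk⟩ := key B hB
  have h1 : MulAut.conj g • A = MulAut.conj k • B := by
    have h2 : (MulAut.conj g • A).subgroupOf (P : Subgroup X) = (MulAut.conj k • B).subgroupOf (P : Subgroup X) := by
      apply Cfsg.Agent.Frob.eq_of_card_eq_of_isCyclic
      rw [Nat.card_congr (Subgroup.subgroupOfEquivOfLe hg).toEquiv, Nat.card_congr (Subgroup.subgroupOfEquivOfLe hk).toEquiv,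
        Nat.card_congr (Subgroup.equivSMul (MulAut.conj g) A).toEquiv.symm,
        Nat.card_congr (Subgroup.equivSMul (MulAut.conj k) B).toEquiv.symm, hA, hB]
    rwa [Subgroup.subgroupOf_inj, inf_eq_left.2 hg, inf_eq_left.2 hk] at h2
  refine ⟨k⁻¹ * g, ?_⟩
  rw [map_mul, mul_smul, h1, map_inv, inv_smul_smul]

theorem smul_eq_iff_mem_normalizer {A : Subgroup X} {g : X} :
    MulAut.conj g • A = A ↔ g ∈ Subgroup.normalizer (A : Set X) := by
  rw [Subgroup.mem_normalizer_iff]
  constructor
  · intro h x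
    constructor
    · intro hx
      rw [← h]
      exact conj_mem_conj_smul hx
    · intro hx
      rw [← h, mem_conj_smul] at hx
      have : g⁻¹ * (g * x * g⁻¹) * g = x := by group
      rwa [this] at hx
  · intro h
    ext x
    rw [mem_conj_smul, h]
    have : g * (g⁻¹ * x * g) * g⁻¹ = x := by group
    rw [this]

/-- if all subgroups of order `q` are conjugate, the normalizer has the expected order -/
theorem card_mul_card_normalizer {q : ℕ} [hq : Fact q.Prime] (P : Sylow q X) [hP : IsCyclic P]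
    (A : Subgroup X) (hA : Nat.card A = q) :
    Nat.card {B : Subgroup X // Nat.card B = q} * Nat.card (Subgroup.normalizer (A : Set X)) = Nat.card X := by
  let f : (X ⧸ Subgroup.normalizer (A : Set X)) → {B : Subgroup X // Nat.card B = q} := fun a =>
    ⟨MulAut.conj (Quotient.out a) • A, by
      rw [Nat.card_congr (Subgroup.equivSMul (MulAut.conj _) A).toEquiv.symm, hA]⟩
  have hf : Function.Bijective f := by
    constructor
    · intro a b hab
      have h1 : MulAut.conj (Quotient.out a) • A = MulAut.conj (Quotient.out b) • A := congrArg Subtype.val hab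
      have h2 : (Quotient.out b)⁻¹ * Quotient.out a ∈ Subgroup.normalizer (A : Set X) := by
        rw [← smul_eq_iff_mem_normalizer, map_mul, mul_smul, h1, map_inv, inv_smul_smul]
      rw [← QuotientGroup.out_eq' a, ← QuotientGroup.out_eq' b]
      exact (QuotientGroup.eq.mpr h2).symm
    · rintro ⟨B, hB⟩
      obtain ⟨g, hg⟩ := conj_of_cyclic_sylow P A B hA hB
      obtain ⟨k, hk⟩ := QuotientGroup.mk_out_eq_mul (Subgroup.normalizer (A : Set X)) g
      refine ⟨(g : X ⧸ _), ?_⟩
      apply Subtype.ext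
      change MulAut.conj (Quotient.out (g : X ⧸ Subgroup.normalizer (A : Set X))) • A = B
      have hk' : (Quotient.out (g : X ⧸ Subgroup.normalizer (A : Set X))) = g * (k : X) := hk
      rw [hk', map_mul, mul_smul, smul_eq_iff_mem_normalizer.2 k.2, hg]
  have h1 : Nat.card {B : Subgroup X // Nat.card B = q} = (Subgroup.normalizer (A : Set X)).index := by
    rw [← Nat.card_congr (Equiv.ofBijective f hf)]
    rfl
  rw [h1]
  exact Subgroup.index_mul_card _

end general

section caseB

variable {F : Type u} {G : Type v} [Group F] [Finite F] [Group G] [Finite G] {C : Subgroup F}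

theorem uniq_prime (hC : IsFrobeniusComplement C) (hodd : Odd (Nat.card C)) {q : ℕ} [hq : Fact q.Prime]
    {A B : Subgroup C} (hA : Nat.card A = q) (hB : Nat.card B = q) : A = B := by
  have hf := Frob.IsFrobeniusComplement.hasFPFModule hC
  have hAn : A.Normal := normal_of_prime_order hf hodd (by rw [hA]; exact hq.out)
  have hBn : B.Normal := normal_of_prime_order hf hodd (by rw [hB]; exact hq.out)
  have hz := Cfsg.Agent.FC.zgroup_of_odd hf hodd
  obtain ⟨P⟩ : Nonempty (Sylow q C) := inferInstance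
  have hc : IsCyclic P := hz.isZGroup q hq.out P
  have h1 : A ≤ (P : Subgroup C) := by
    have : IsPGroup q A := IsPGroup.of_card (n := 1) (by rw [hA, pow_one])
    obtain ⟨Q, hQ⟩ := this.exists_le_sylow
    obtain ⟨g, hg⟩ := MulAction.exists_smul_eq C Q P
    rw [← hg]
    have h2 := Subgroup.pointwise_smul_le_pointwise_smul_iff (a := MulAut.conj g).2 hQ
    have h3 : MulAut.conj g • A = A := smul_eq_iff_mem_normalizer.2 (by rw [Subgroup.normalizer_eq_top]; trivial)
    rw [h3] at h2
    exact h2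
  have h2 : B ≤ (P : Subgroup C) := by
    have : IsPGroup q B := IsPGroup.of_card (n := 1) (by rw [hB, pow_one])
    obtain ⟨Q, hQ⟩ := this.exists_le_sylow
    obtain ⟨g, hg⟩ := MulAction.exists_smul_eq C Q P
    rw [← hg]
    have h2 := Subgroup.pointwise_smul_le_pointwise_smul_iff (a := MulAut.conj g).2 hQ
    have h3 : MulAut.conj g • B = B := smul_eq_iff_mem_normalizer.2 (by rw [Subgroup.normalizer_eq_top]; trivial)
    rw [h3] at h2
    exact h2
  have h3 : A.subgroupOf (P : Subgroup C) = B.subgroupOf (P : Subgroup C) := by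
    apply Cfsg.Agent.Frob.eq_of_card_eq_of_isCyclic
    rw [Nat.card_congr (Subgroup.subgroupOfEquivOfLe h1).toEquiv, Nat.card_congr (Subgroup.subgroupOfEquivOfLe h2).toEquiv, hA, hB]
  rwa [Subgroup.subgroupOf_inj, inf_eq_left.2 h1, inf_eq_left.2 h2] at h3

theorem card_order_prime_compl (hC : IsFrobeniusComplement C) (hodd : Odd (Nat.card C)) {q : ℕ} (hq : q.Prime)
    (hqC : q ∣ Nat.card C) : Nat.card {c : C // orderOf c = q} = q - 1 := by
  haveI := Fact.mk hq
  rw [card_prime_order hq]
  have h1 : Nat.card {A : Subgroup C // Nat.card A = q} = 1 := by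
    rw [Nat.card_eq_one_iff_unique]
    refine ⟨⟨fun A B => Subtype.ext (uniq_prime hC hodd A.2 B.2)⟩, ?_⟩
    obtain ⟨x, hx⟩ := exists_prime_orderOf_dvd_card' (G := C) q hqC
    exact ⟨⟨Subgroup.zpowers x, by rw [Nat.card_zpowers, hx]⟩⟩
  rw [h1, one_mul]

theorem commute_of_orders (hC : IsFrobeniusComplement C) (hodd : Odd (Nat.card C)) {q r : ℕ} (hq : q.Prime)
    (hr : r.Prime) (hqr : q ≠ r) {x y : C} (hx : orderOf x = q) (hy : orderOf y = r) : Commute x y := by
  have hf := Frob.IsFrobeniusComplement.hasFPFModule hC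
  have h1 : (Subgroup.zpowers y).Normal := normal_of_prime_order hf hodd (by rw [Nat.card_zpowers, hy]; exact hr)
  exact hf.commute_of_normalizes hq hr hqr hx hy (by rw [Subgroup.normalizer_eq_top]; trivial)

theorem card_order_mul_compl (hC : IsFrobeniusComplement C) (hodd : Odd (Nat.card C)) {q r : ℕ} (hq : q.Prime)
    (hr : r.Prime) (hqr : q ≠ r) (hqC : q ∣ Nat.card C) (hrC : r ∣ Nat.card C) :
    Nat.card {c : C // orderOf c = q * r} = (q - 1) * (r - 1) := by
  rw [card_order_mul hq hr hqr, ← card_order_prime_compl hC hodd hq hqC, ← card_order_prime_compl hC hodd hr hrC,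
    ← Nat.card_prod]
  refine Nat.card_congr ⟨fun p => (⟨p.1.1, p.2.1⟩, ⟨p.1.2, p.2.2.1⟩), fun p => ⟨(p.1.1, p.2.1), p.1.2, p.2.2,
    commute_of_orders hC hodd hq hr hqr p.1.2 p.2.2⟩, fun p => rfl, fun p => rfl⟩

/-- the odd case -/
theorem caseB (hC : IsFrobeniusComplement C) (hodd : Odd (Nat.card C))
    (hT : ∀ m : ℕ, Nat.card {g : F // orderOf g = m} = Nat.card {h : G // orderOf h = m}) :
    ∃ M : Subgroup G, IsFrobeniusComplement M ∧ Nat.card M = Nat.card C := by
  classical
  obtain ⟨e, he⟩ := exists_equiv_order hT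
  have hcard : Nat.card G = C.index * Nat.card C := by
    rw [← Nat.card_congr e, Subgroup.index_mul_card]
  have hcop := coprime_card_index hC
  have hn0 : 0 < C.index := Nat.pos_of_ne_zero Subgroup.index_ne_zero_of_finite
  -- element counts in `G`
  have hcount : ∀ q : ℕ, q.Prime → q ∣ Nat.card C → Nat.card {x : G // orderOf x = q} = C.index * (q - 1) := by
    intro q hq hqC
    rw [← hT q, card_order_eq hC (fun m => m = q), card_order_prime_compl hC hodd hq hqC]
    intro x hx hxq
    apply not_mem_kernel hC _ hx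
    rw [hxq]
    intro h
    exact hq.one_lt.ne' (Nat.dvd_one.1 (h ▸ Nat.dvd_gcd dvd_rfl hqC))
  have hcount2 : ∀ q r : ℕ, q.Prime → r.Prime → q ≠ r → q ∣ Nat.card C → r ∣ Nat.card C →
      Nat.card {x : G // orderOf x = q * r} = C.index * ((q - 1) * (r - 1)) := by
    intro q r hq hr hqr hqC hrC
    rw [← hT (q * r), card_order_eq hC (fun m => m = q * r), card_order_mul_compl hC hodd hq hr hqr hqC hrC]
    intro x hx hxq
    apply not_mem_kernel hC _ hx
    rw [hxq]
    intro h
    exact hq.one_lt.ne' (Nat.dvd_one.1 (h ▸ Nat.dvd_gcd (Dvd.intro r rfl) hqC))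
  -- cyclic Sylow subgroups
  have hcyc : ∀ q : ℕ, q.Prime → q ∣ Nat.card C → ∃ P : Sylow q G, IsCyclic P := by
    intro q hq hqC
    have := Fact.mk hq
    have hz := Cfsg.Agent.FC.zgroup_of_odd (Frob.IsFrobeniusComplement.hasFPFModule hC) hodd
    obtain ⟨P⟩ : Nonempty (Sylow q C) := inferInstance
    have hc : IsCyclic P := hz.isZGroup q hq P
    obtain ⟨g, hg⟩ := hc.exists_generator
    have hgo : orderOf (g : C) = q ^ (Nat.card C).factorization q := by
      rw [Subgroup.orderOf_coe, orderOf_eq_card_of_forall_mem_zpowers hg]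
      exact P.card_eq_multiplicity
    have hgF : orderOf ((g : C) : F) = q ^ (Nat.card C).factorization q := by
      rw [Subgroup.orderOf_coe, hgo]
    have hGf : (Nat.card G).factorization q = (Nat.card C).factorization q := by
      rw [hcard, Nat.factorization_mul hn0.ne' Nat.card_pos.ne', Finsupp.add_apply,
        Nat.factorization_eq_zero_of_not_dvd, zero_add]
      intro h
      exact hq.one_lt.ne' (Nat.dvd_one.1 (hcop ▸ Nat.dvd_gcd hqC h))
    have h1 : Nat.card (Subgroup.zpowers (e ((g : C) : F))) = q ^ (Nat.card G).factorization q := by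
      rw [Nat.card_zpowers, he, hgF, hGf]
    refine ⟨Sylow.ofCard (Subgroup.zpowers (e ((g : C) : F))) h1, ?_⟩
    change IsCyclic (Subgroup.zpowers (e ((g : C) : F)))
    infer_instance
  -- number of subgroups of order q
  have hsub : ∀ q : ℕ, q.Prime → q ∣ Nat.card C → Nat.card {A : Subgroup G // Nat.card A = q} = C.index := by
    intro q hq hqC
    have h1 := hcount q hq hqC
    rw [card_prime_order hq] at h1
    exact Nat.eq_of_mul_eq_mul_right (by have := hq.two_le; omega) h1
  have hnorm : ∀ q : ℕ, q.Prime → q ∣ Nat.card C → ∀ A : Subgroup G, Nat.card A = q →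
      Nat.card (Subgroup.normalizer (A : Set G)) = Nat.card C := by
    intro q hq hqC A hA
    have := Fact.mk hq
    obtain ⟨P, hP⟩ := hcyc q hq hqC
    have h1 := card_mul_card_normalizer P A hA
    rw [hsub q hq hqC, hcard] at h1
    exact Nat.eq_of_mul_eq_mul_left hn0 h1
  -- the number of elements of order q commuting with one of order r
  have hcent : ∀ q r : ℕ, q.Prime → r.Prime → q ≠ r → q ∣ Nat.card C → r ∣ Nat.card C →
      ∀ y : G, orderOf y = r → Nat.card {x : G // orderOf x = q ∧ Commute x y} = q - 1 := by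
    intro q r hq hr hqr hqC hrC y hy
    have := Fact.mk hr
    have h1 := hcount2 q r hq hr hqr hqC hrC
    rw [card_order_mul hq hr hqr] at h1
    have e1 : {p : G × G // orderOf p.1 = q ∧ orderOf p.2 = r ∧ Commute p.1 p.2} ≃
        Σ z : {z : G // orderOf z = r}, {x : G // orderOf x = q ∧ Commute x z.1} :=
      ⟨fun p => ⟨⟨p.1.2, p.2.2.1⟩, ⟨p.1.1, p.2.1, p.2.2.2⟩⟩, fun s => ⟨(s.2.1, s.1.1), s.2.2.1, s.1.2, s.2.2.2⟩,
        fun p => rfl, fun s => rfl⟩
    have h2 : ∀ z : {z : G // orderOf z = r}, Nat.card {x : G // orderOf x = q ∧ Commute x z.1} =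
        Nat.card {x : G // orderOf x = q ∧ Commute x y} := by
      rintro ⟨z, hz⟩
      obtain ⟨P, hP⟩ := hcyc r hr hrC
      obtain ⟨g, hg⟩ := conj_of_cyclic_sylow P (Subgroup.zpowers z) (Subgroup.zpowers y)
        (by rw [Nat.card_zpowers, hz]) (by rw [Nat.card_zpowers, hy])
      have hzy : g * z * g⁻¹ ∈ Subgroup.zpowers y := by
        rw [← hg]; exact conj_mem_conj_smul (Subgroup.mem_zpowers z)
      have hyz : g⁻¹ * y * g ∈ Subgroup.zpowers z := by
        rw [← mem_conj_smul, hg]; exact Subgroup.mem_zpowers y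
      obtain ⟨i, hi⟩ := Subgroup.mem_zpowers_iff.1 hzy
      obtain ⟨j, hj⟩ := Subgroup.mem_zpowers_iff.1 hyz
      refine Nat.card_congr ⟨fun x => ⟨g * x.1 * g⁻¹, ?_, ?_⟩, fun x => ⟨g⁻¹ * x.1 * g, ?_, ?_⟩, ?_, ?_⟩
      · rw [ord_conj]; exact x.2.1
      · have h3 : Commute x.1 (g⁻¹ * y * g) := by rw [← hj]; exact x.2.2.zpow_right j
        have h4 : g * (x.1 * (g⁻¹ * y * g)) * g⁻¹ = g * ((g⁻¹ * y * g) * x.1) * g⁻¹ := by rw [h3.eq]
        change g * x.1 * g⁻¹ * y = y * (g * x.1 * g⁻¹)
        simpa [mul_assoc] using h4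
      · have : g⁻¹ * x.1 * g = g⁻¹ * x.1 * g⁻¹⁻¹ := by group
        rw [this, ord_conj]; exact x.2.1
      · have h3 : Commute x.1 (g * z * g⁻¹) := by rw [← hi]; exact x.2.2.zpow_right i
        have h4 : g⁻¹ * (x.1 * (g * z * g⁻¹)) * g = g⁻¹ * ((g * z * g⁻¹) * x.1) * g := by rw [h3.eq]
        change g⁻¹ * x.1 * g * z = z * (g⁻¹ * x.1 * g)
        simpa [mul_assoc] using h4
      · intro x
        apply Subtype.ext
        change g⁻¹ * (g * x.1 * g⁻¹) * g = x.1
        group
      · intro x
        apply Subtype.ext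
        change g * (g⁻¹ * x.1 * g) * g⁻¹ = x.1
        group
    have : Fintype {z : G // orderOf z = r} := Fintype.ofFinite _
    rw [Nat.card_congr e1, Nat.card_sigma, Finset.sum_congr rfl (fun z _ => h2 z), Finset.sum_const, smul_eq_mul,
      Finset.card_univ, ← Nat.card_eq_fintype_card, hcount r hr hrC] at h1
    have h5 : C.index * (r - 1) * Nat.card {x : G // orderOf x = q ∧ Commute x y} = C.index * (r - 1) * (q - 1) := by
      rw [h1]; ring
    exact Nat.eq_of_mul_eq_mul_left (Nat.mul_pos hn0 (by have := hr.two_le; omega)) h5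
  -- the complement
  obtain ⟨r, hr, hrC⟩ : ∃ r : ℕ, r.Prime ∧ r ∣ Nat.card C := by
    apply Nat.exists_prime_and_dvd
    intro h
    exact hC.1 (Subgroup.card_eq_one.1 h)
  haveI := Fact.mk hr
  obtain ⟨y, hy⟩ : ∃ y : G, orderOf y = r := by
    apply exists_prime_orderOf_dvd_card' r
    rw [hcard]
    exact hrC.mul_left _
  set M := Subgroup.normalizer (Subgroup.zpowers y : Set G) with hM
  have hMcard : Nat.card M = Nat.card C := hnorm r hr hrC _ (by rw [Nat.card_zpowers, hy])
  -- for each prime, a normal subgroup of that order with normalizer `M`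
  have hall : ∀ q : ℕ, q.Prime → q ∣ Nat.card C → ∃ Q : Subgroup G, Nat.card Q = q ∧
      Subgroup.normalizer (Q : Set G) = M := by
    intro q hq hqC
    by_cases hqr : q = r
    · subst hqr
      exact ⟨Subgroup.zpowers y, by rw [Nat.card_zpowers, hy], rfl⟩
    have hk := hcent q r hq hr hqr hqC hrC y hy
    have hne : Nonempty {x : G // orderOf x = q ∧ Commute x y} := by
      apply (Nat.card_pos_iff.1 _).1
      rw [hk]; have := hq.two_le; omega
    obtain ⟨x, hx, hxy⟩ := hne
    refine ⟨Subgroup.zpowers x, by rw [Nat.card_zpowers, hx], ?_⟩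
    -- uniqueness in the centralizer
    have huniq : ∀ A : Subgroup G, Nat.card A = q → (∀ a ∈ A, Commute a y) →
        (A : Set G) \ {1} = {x : G | orderOf x = q ∧ Commute x y} := by
      intro A hA hAy
      apply Set.eq_of_subset_of_ncard_le _ _ (Set.toFinite _)
      · rintro a ⟨ha, ha1⟩
        exact ⟨orderOf_of_mem_prime hq hA ha ha1, hAy a ha⟩
      · have h1 : Set.ncard {x : G | orderOf x = q ∧ Commute x y} = q - 1 := by
          rw [← Nat.card_coe_set_eq]; exact hk
        rw [h1, Set.ncard_sdiff_singleton_of_mem A.one_mem, ← Nat.card_coe_set_eq]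
        change q - 1 ≤ Nat.card A - 1
        rw [hA]
    have huniq2 : ∀ A : Subgroup G, Nat.card A = q → (∀ a ∈ A, Commute a y) → A = Subgroup.zpowers x := by
      intro A hA hAy
      have h1 := huniq A hA hAy
      have h2 := huniq (Subgroup.zpowers x) (by rw [Nat.card_zpowers, hx]) (by
        intro a ha
        obtain ⟨i, rfl⟩ := Subgroup.mem_zpowers_iff.1 ha
        exact hxy.zpow_left i)
      have h3 := h1.trans h2.symm
      ext a
      by_cases ha1 : a = 1
      · subst ha1
        exact ⟨fun _ => Subgroup.one_mem _, fun _ => Subgroup.one_mem _⟩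
      · constructor
        · intro ha
          have : a ∈ (A : Set G) \ {1} := ⟨ha, ha1⟩
          rw [h3] at this
          exact this.1
        · intro ha
          have : a ∈ (Subgroup.zpowers x : Set G) \ {1} := ⟨ha, ha1⟩
          rw [← h3] at this
          exact this.1
    symm
    apply Subgroup.eq_of_le_of_card_ge
    · intro g hg
      rw [← smul_eq_iff_mem_normalizer]
      apply huniq2
      · rw [Nat.card_congr (Subgroup.equivSMul (MulAut.conj _) _).toEquiv.symm, Nat.card_zpowers, hx]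
      · intro a ha
        rw [mem_conj_smul] at ha
        obtain ⟨i, hi⟩ := Subgroup.mem_zpowers_iff.1 ha
        have h1 : g⁻¹ * y * g ∈ Subgroup.zpowers y := by
          have := (Subgroup.mem_normalizer_iff.1 ((Subgroup.normalizer (Subgroup.zpowers y : Set G)).inv_mem hg) y).1
            (Subgroup.mem_zpowers y)
          simpa using this
        obtain ⟨j, hj⟩ := Subgroup.mem_zpowers_iff.1 h1
        have h2 : Commute (g⁻¹ * a * g) (g⁻¹ * y * g) := by
          rw [← hi, ← hj]
          exact (hxy.zpow_left i).zpow_right j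
        have h3 : g * ((g⁻¹ * a * g) * (g⁻¹ * y * g)) * g⁻¹ = g * ((g⁻¹ * y * g) * (g⁻¹ * a * g)) * g⁻¹ := by
          rw [h2.eq]
        change a * y = y * a
        simpa [mul_assoc] using h3
    · rw [hMcard, hnorm q hq hqC _ (by rw [Nat.card_zpowers, hx])]
  -- unique subgroup of order q in M
  have huM : ∀ q : ℕ, q.Prime → q ∣ Nat.card C → ∀ A Q : Subgroup G, Nat.card Q = q →
      Subgroup.normalizer (Q : Set G) = M → Nat.card A = q → A ≤ M → A = Q := by
    intro q hq hqC A Q hQ hQM hA hAM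
    haveI := Fact.mk hq
    obtain ⟨P, hP⟩ := hcyc q hq hqC
    have hpA : IsPGroup q A := IsPGroup.of_card (n := 1) (by rw [hA, pow_one])
    have hpQ : IsPGroup q Q := IsPGroup.of_card (n := 1) (by rw [hQ, pow_one])
    have hp : IsPGroup q (A ⊔ Q : Subgroup G) := hpA.to_sup_of_normal_right' hpQ (by rw [hQM]; exact hAM)
    obtain ⟨S, hS⟩ := hp.exists_le_sylow
    have hScyc : IsCyclic S := by
      obtain ⟨g, hg⟩ := MulAction.exists_smul_eq G P S
      rw [← hg]
      exact isCyclic_of_surjective (Sylow.equivSMul P g).toMonoidHom (Sylow.equivSMul P g).surjective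
    have h1 : A ≤ (S : Subgroup G) := le_sup_left.trans hS
    have h2 : Q ≤ (S : Subgroup G) := le_sup_right.trans hS
    have h3 : A.subgroupOf (S : Subgroup G) = Q.subgroupOf (S : Subgroup G) := by
      apply Cfsg.Agent.Frob.eq_of_card_eq_of_isCyclic
      rw [Nat.card_congr (Subgroup.subgroupOfEquivOfLe h1).toEquiv, Nat.card_congr (Subgroup.subgroupOfEquivOfLe h2).toEquiv, hA, hQ]
    rwa [Subgroup.subgroupOf_inj, inf_eq_left.2 h1, inf_eq_left.2 h2] at h3
  refine ⟨M, isFrobeniusComplement_iff.2 ⟨?_, ?_, ?_⟩, hMcard⟩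
  · intro h
    rw [h] at hMcard
    rw [Subgroup.card_bot] at hMcard
    exact hC.1 (Subgroup.card_eq_one.1 hMcard.symm)
  · intro h
    rw [h, Subgroup.card_top, hcard] at hMcard
    have h1 : C.index = 1 := by
      have h2 : C.index * Nat.card C = 1 * Nat.card C := by rw [hMcard, one_mul]
      exact Nat.eq_of_mul_eq_mul_right Nat.card_pos h2
    exact hC.2.1 (Subgroup.index_eq_one.1 h1)
  · intro g x hx hx1 hgx
    obtain ⟨q, hq, hqx⟩ := Nat.exists_prime_and_dvd (n := orderOf x) (fun h => hx1 (orderOf_eq_one_iff.1 h))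
    have hqC : q ∣ Nat.card C := by
      rw [← hMcard]
      have := orderOf_dvd_natCard (⟨x, hx⟩ : M)
      rw [Subgroup.orderOf_mk] at this
      exact hqx.trans this
    set z := x ^ (orderOf x / q) with hz
    have hzo : orderOf z = q := orderOf_pow_orderOf_div (orderOf_pos x).ne' hqx
    obtain ⟨Q, hQ, hQM⟩ := hall q hq hqC
    have hzM : z ∈ M := M.pow_mem hx _
    have hgz : g * z * g⁻¹ ∈ M := by
      rw [hz, ← conj_pow]; exact M.pow_mem hgx _
    have h1 : Subgroup.zpowers z = Q :=
      huM q hq hqC _ Q hQ hQM (by rw [Nat.card_zpowers, hzo]) (by rw [Subgroup.zpowers_le]; exact hzM)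
    have h2 : Subgroup.zpowers (g * z * g⁻¹) = Q :=
      huM q hq hqC _ Q hQ hQM (by rw [Nat.card_zpowers, ord_conj, hzo]) (by rw [Subgroup.zpowers_le]; exact hgz)
    rw [← hQM, ← smul_eq_iff_mem_normalizer, ← h1]
    have h3 : Subgroup.zpowers (g * z * g⁻¹) ≤ MulAut.conj g • Subgroup.zpowers z := by
      rw [Subgroup.zpowers_le]; exact conj_mem_conj_smul (Subgroup.mem_zpowers z)
    rw [h2, ← h1] at h3
    symm
    apply Subgroup.eq_of_le_of_card_ge h3
    rw [Nat.card_congr (Subgroup.equivSMul (MulAut.conj _) _).toEquiv.symm]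

end caseB

end Cfsg.Agent.FT
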