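import Cfsg.Agent.FT.OrdB
import Cfsg.Agent.FT.Base
import Cfsg.Agent.H4.Final
import Cfsg.Agent.Solv.Core
import Cfsg.Agent.Cop.Hall

/-!
Groups with the order type of a Frobenius group with complement of even order.
-/

set_option autoImplicit false
set_option linter.unusedSectionVars false

namespace Cfsg.Agent.FT

open scoped Pointwise
open Cfsg Cfsg.Agent.Frob Cfsg.Agent.Solv

universe u v

section general

variable {X : Type u} [Group X] [Finite X]

/-- odd order elements commuting with an involution -/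
theorem card_odd_commute {t : X} (ht : orderOf t = 2) :
    Nat.card {y : X // Odd (orderOf y) ∧ Commute t y} =
      Nat.card {x : X // orderOf x % 4 = 2 ∧ x ^ (orderOf x / 2) = t} := by
  have htt : t * t = 1 := by
    have := pow_orderOf_eq_one t
    rwa [ht, pow_two] at this
  have ho : ∀ y : X, Odd (orderOf y) → Commute t y → orderOf (t * y) = 2 * orderOf y := by
    intro y hy hc
    rw [hc.orderOf_mul_eq_mul_orderOf_of_coprime (by rw [ht]; exact Nat.coprime_two_left.2 hy), ht]
  refine Nat.card_congr ⟨fun y => ⟨t * y.1, ?_, ?_⟩, fun x => ⟨t * x.1, ?_, ?_⟩, ?_, ?_⟩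
  · rw [ho y.1 y.2.1 y.2.2]
    obtain ⟨k, hk⟩ := y.2.1
    omega
  · rw [ho y.1 y.2.1 y.2.2, Nat.mul_div_cancel_left _ (by norm_num), y.2.2.mul_pow, pow_orderOf_eq_one, mul_one]
    obtain ⟨k, hk⟩ := y.2.1
    rw [hk, pow_succ, pow_mul, pow_two, htt, one_pow, one_mul]
  · obtain ⟨x, hx, hxt⟩ := x
    change Odd (orderOf (t * x))
    set m := orderOf x / 2 with hm
    have h2 : orderOf x = 2 * m := by omega
    have hmodd : m % 2 = 1 := by omega
    have h3 : (t * x) ^ m = 1 := by
      rw [← hxt, ← pow_succ, ← pow_mul]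
      have h4 : (m + 1) * m = orderOf x * ((m + 1) / 2) := by
        rw [h2]
        have : m + 1 = 2 * ((m + 1) / 2) := by omega
        conv_lhs => rw [this]
        ring
      rw [h4, pow_mul, pow_orderOf_eq_one, one_pow]
    exact Odd.of_dvd_nat (Nat.odd_iff.2 hmodd) (orderOf_dvd_of_pow_eq_one h3)
  · obtain ⟨x, hx, hxt⟩ := x
    change Commute t (t * x)
    have : Commute t x := by rw [← hxt]; exact (Commute.refl x).pow_left _
    exact (Commute.refl t).mul_right this
  · rintro ⟨y, hy⟩
    apply Subtype.ext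
    change t * (t * y) = y
    rw [← mul_assoc, htt, one_mul]
  · rintro ⟨y, hy⟩
    apply Subtype.ext
    change t * (t * y) = y
    rw [← mul_assoc, htt, one_mul]

/-- conjugate involutions have equally many roots -/
theorem card_roots_conj (P : ℕ → Prop) {s t g : X} (h : g * s * g⁻¹ = t) :
    Nat.card {x : X // P (orderOf x) ∧ x ^ (orderOf x / 2) = s} =
      Nat.card {x : X // P (orderOf x) ∧ x ^ (orderOf x / 2) = t} := by
  refine Nat.card_congr ⟨fun x => ⟨g * x.1 * g⁻¹, ?_, ?_⟩, fun x => ⟨g⁻¹ * x.1 * g⁻¹⁻¹, ?_, ?_⟩, ?_, ?_⟩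
  · rw [ord_conj]; exact x.2.1
  · rw [ord_conj, conj_pow, x.2.2, h]
  · rw [ord_conj]; exact x.2.1
  · rw [ord_conj, conj_pow, x.2.2, ← h]; group
  · rintro ⟨x, hx⟩
    apply Subtype.ext
    change g⁻¹ * (g * x * g⁻¹) * g⁻¹⁻¹ = x
    group
  · rintro ⟨x, hx⟩
    apply Subtype.ext
    change g * (g⁻¹ * x * g⁻¹⁻¹) * g⁻¹ = x
    group

/-- counting elements of even order by their involutions -/
theorem card_even_eq (P : ℕ → Prop) (hP : ∀ m, P m → Even m) {t : X}
    (hconj : ∀ s : X, orderOf s = 2 → ∃ g, g * s * g⁻¹ = t) :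
    Nat.card {x : X // P (orderOf x)} = Nat.card {s : X // orderOf s = 2} *
      Nat.card {x : X // P (orderOf x) ∧ x ^ (orderOf x / 2) = t} := by
  classical
  let φ : {x : X // P (orderOf x)} → {s : X // orderOf s = 2} := fun x =>
    ⟨x.1 ^ (orderOf x.1 / 2), orderOf_pow_orderOf_div (orderOf_pos x.1).ne' (hP _ x.2).two_dvd⟩
  let f : {x : X // P (orderOf x)} ≃
      Σ s : {s : X // orderOf s = 2}, {x : X // P (orderOf x) ∧ x ^ (orderOf x / 2) = s.1} :=
    (Equiv.sigmaFiberEquiv φ).symm.trans (Equiv.sigmaCongrRight (fun s =>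
      ⟨fun y => ⟨y.1.1, y.1.2, congrArg Subtype.val y.2⟩, fun x => ⟨⟨x.1, x.2.1⟩, Subtype.ext x.2.2⟩,
        fun y => rfl, fun x => rfl⟩))
  have : Fintype {s : X // orderOf s = 2} := Fintype.ofFinite _
  rw [Nat.card_congr f, Nat.card_sigma, Finset.sum_congr rfl (fun s _ => by
    obtain ⟨g, hg⟩ := hconj s.1 s.2
    exact card_roots_conj P hg), Finset.sum_const, smul_eq_mul, Finset.card_univ, ← Nat.card_eq_fintype_card]

end general

section caseA

variable {F : Type u} {G : Type v} [Group F] [Finite F] [Group G] [Finite G] {C : Subgroup F}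

/-- the even case -/
theorem caseA (hC : IsFrobeniusComplement C) (heven : 2 ∣ Nat.card C)
    (hT : ∀ m : ℕ, Nat.card {g : F // orderOf g = m} = Nat.card {h : G // orderOf h = m}) :
    ∃ M : Subgroup G, IsFrobeniusComplement M ∧ Nat.card M = Nat.card C := by
  classical
  haveI : Fact (Nat.Prime 2) := ⟨Nat.prime_two⟩
  obtain ⟨e, he⟩ := exists_equiv_order hT
  have hcard : Nat.card G = C.index * Nat.card C := by
    rw [← Nat.card_congr e, Subgroup.index_mul_card]
  have hcop := coprime_card_index hC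
  have hn0 : 0 < C.index := Nat.pos_of_ne_zero Subgroup.index_ne_zero_of_finite
  have hfpf := Frob.IsFrobeniusComplement.hasFPFModule hC
  have hdiv : ∀ x : G, orderOf x ∣ C.index ∨ orderOf x ∣ Nat.card C := by
    intro x
    have h1 := he (e.symm x)
    rw [e.apply_symm_apply] at h1
    rw [h1]
    rcases order_dvd hC (e.symm x) with h | h
    · exact Or.inl h.2
    · exact Or.inr h.2
  -- the involution of `C`
  obtain ⟨t₀, ht₀⟩ := exists_prime_orderOf_dvd_card' (G := C) 2 heven
  have sq : ∀ {Y : Type u} [Group Y] {s : Y}, orderOf s = 2 → s * s = 1 ∧ s ≠ 1 := by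
    intro Y _ s hs
    refine ⟨?_, ?_⟩
    · have := pow_orderOf_eq_one s
      rwa [hs, pow_two] at this
    · rintro rfl; rw [orderOf_one] at hs; omega
  have huC : ∀ s : C, orderOf s = 2 → s = t₀ := fun s hs =>
    hfpf.eq_of_involution (sq hs).1 (sq hs).2 (sq ht₀).1 (sq ht₀).2
  have hcen : ∀ c : C, Commute t₀ c := by
    intro c
    have h1 : c * t₀ * c⁻¹ = t₀ := huC _ (by rw [ord_conj, ht₀])
    exact (mul_inv_eq_iff_eq_mul.1 h1).symm
  have hker : ∀ (P : ℕ → Prop), (∀ m, P m → Even m) → ∀ x : F, x ∈ frobeniusKernel C → ¬ P (orderOf x) := by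
    intro P hP x hx hPx
    apply not_mem_kernel hC _ hx
    intro h
    have h2 : 2 ∣ Nat.gcd (orderOf x) (Nat.card C) := Nat.dvd_gcd (hP _ hPx).two_dvd heven
    rw [h] at h2
    omega
  have hcountP : ∀ (P : ℕ → Prop), (∀ m, P m → Even m) → Nat.card {x : G // P (orderOf x)} =
      C.index * Nat.card {c : C // P (orderOf c)} := by
    intro P hP
    rw [← card_order_eq hC P (hker P hP)]
    symm
    exact Nat.card_congr (e.subtypeEquiv (fun x => by rw [he]))
  have hinv : Nat.card {x : G // orderOf x = 2} = C.index := by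
    rw [hcountP (fun m => m = 2) (fun m hm => by rw [hm]; exact even_two)]
    have : Nat.card {c : C // orderOf c = 2} = 1 := by
      rw [Nat.card_eq_one_iff_unique]
      exact ⟨⟨fun a b => Subtype.ext ((huC _ a.2).trans (huC _ b.2).symm)⟩, ⟨⟨t₀, ht₀⟩⟩⟩
    rw [this, mul_one]
  obtain ⟨t, ht⟩ : ∃ t : G, orderOf t = 2 := by
    apply exists_prime_orderOf_dvd_card' 2
    rw [hcard]
    exact heven.mul_left _
  have htt : t * t = 1 := by
    have := pow_orderOf_eq_one t
    rwa [ht, pow_two] at this
  have ht1 : t ≠ 1 := by rintro rfl; rw [orderOf_one] at ht; omega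
  set M := Subgroup.centralizer ({t} : Set G) with hM
  have hMmem : ∀ y : G, y ∈ M ↔ Commute t y := by
    intro y
    rw [hM, Subgroup.mem_centralizer_iff]
    constructor
    · intro h; exact h t rfl
    · rintro h _ rfl; exact h
  have h2n : ¬ 2 ∣ C.index := by
    intro h
    have := Nat.dvd_gcd heven h
    rw [hcop] at this
    omega
  -- no elements of order dividing the index in the centralizer
  have hMcop : (Nat.card M).Coprime C.index := by
    rw [Nat.coprime_iff_gcd_eq_one]
    by_contra hne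
    obtain ⟨p, hp, hpd⟩ := Nat.exists_prime_and_dvd hne
    haveI := Fact.mk hp
    obtain ⟨x, hx⟩ := exists_prime_orderOf_dvd_card' (G := M) p (hpd.trans (Nat.gcd_dvd_left _ _))
    have hpn : p ∣ C.index := hpd.trans (Nat.gcd_dvd_right _ _)
    have hxo : orderOf (x : G) = p := by rw [Subgroup.orderOf_coe, hx]
    have hc : Commute t (x : G) := (hMmem _).1 x.2
    have hp2 : p ≠ 2 := by rintro rfl; exact h2n hpn
    have ho : orderOf (t * (x : G)) = 2 * p := by
      rw [hc.orderOf_mul_eq_mul_orderOf_of_coprime (by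
        rw [ht, hxo]; exact (Nat.coprime_primes Nat.prime_two hp).2 (Ne.symm hp2)), ht, hxo]
    rcases hdiv (t * (x : G)) with h | h
    · rw [ho] at h
      exact h2n ((Dvd.intro p rfl).trans h)
    · rw [ho] at h
      have h1 : p ∣ Nat.card C := (Dvd.intro_left 2 rfl).trans h
      have h2 := Nat.dvd_gcd h1 hpn
      rw [hcop] at h2
      exact hp.one_lt.ne' (Nat.dvd_one.1 h2)
  have hMdvd : Nat.card M ∣ Nat.card C := by
    have h1 : Nat.card M ∣ C.index * Nat.card C := by rw [← hcard]; exact Subgroup.card_subgroup_dvd_card M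
    exact hMcop.dvd_of_dvd_mul_left h1
  have hMidx : C.index ≤ M.index := by
    have h1 : M.index * Nat.card M = C.index * Nat.card C := by rw [Subgroup.index_mul_card, hcard]
    by_contra hlt
    push Not at hlt
    have h2 := Nat.le_of_dvd Nat.card_pos hMdvd
    have h3 : M.index * Nat.card M < C.index * Nat.card C := by
      calc M.index * Nat.card M ≤ M.index * Nat.card C := Nat.mul_le_mul_left _ h2
        _ < C.index * Nat.card C := Nat.mul_lt_mul_of_pos_right hlt Nat.card_pos
    omega
  let f : (G ⧸ M) → {x : G // orderOf x = 2} := fun a =>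
    ⟨Quotient.out a * t * (Quotient.out a)⁻¹, by rw [ord_conj, ht]⟩
  have hfinj : Function.Injective f := by
    intro a b hab
    have h1 : Quotient.out a * t * (Quotient.out a)⁻¹ = Quotient.out b * t * (Quotient.out b)⁻¹ := congrArg Subtype.val hab
    have h2 : (Quotient.out b)⁻¹ * Quotient.out a ∈ M := by
      rw [hMmem]
      change t * ((Quotient.out b)⁻¹ * Quotient.out a) = (Quotient.out b)⁻¹ * Quotient.out a * t
      have h3 : (Quotient.out b)⁻¹ * (Quotient.out a * t * (Quotient.out a)⁻¹) * Quotient.out a =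
        (Quotient.out b)⁻¹ * (Quotient.out b * t * (Quotient.out b)⁻¹) * Quotient.out a := by rw [h1]
      simpa [mul_assoc] using h3.symm
    rw [← QuotientGroup.out_eq' a, ← QuotientGroup.out_eq' b]
    exact (QuotientGroup.eq.mpr h2).symm
  have hMidx2 : M.index = C.index := by
    apply le_antisymm _ hMidx
    have := Nat.card_le_card_of_injective f hfinj
    rwa [hinv] at this
  have hfbij : Function.Bijective f := by
    haveI : Fintype (G ⧸ M) := Fintype.ofFinite _
    haveI : Fintype {x : G // orderOf x = 2} := Fintype.ofFinite _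
    rw [Fintype.bijective_iff_injective_and_card]
    refine ⟨hfinj, ?_⟩
    rw [← Nat.card_eq_fintype_card, ← Nat.card_eq_fintype_card, hinv, ← hMidx2]
    rfl
  have hMcard : Nat.card M = Nat.card C := by
    have h1 : M.index * Nat.card M = C.index * Nat.card C := by rw [Subgroup.index_mul_card, hcard]
    rw [hMidx2] at h1
    exact Nat.eq_of_mul_eq_mul_left hn0 h1
  have hconj : ∀ s : G, orderOf s = 2 → ∃ g, g * s * g⁻¹ = t := by
    intro s hs
    obtain ⟨a, ha⟩ := hfbij.2 ⟨s, hs⟩
    have h1 : Quotient.out a * t * (Quotient.out a)⁻¹ = s := congrArg Subtype.val ha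
    refine ⟨(Quotient.out a)⁻¹, ?_⟩
    rw [← h1]; group
  -- counting roots
  have hroots : ∀ (P : ℕ → Prop), (∀ m, P m → Even m) →
      Nat.card {x : G // P (orderOf x) ∧ x ^ (orderOf x / 2) = t} = Nat.card {c : C // P (orderOf c)} := by
    intro P hP
    have h1 := card_even_eq P hP hconj
    rw [hcountP P hP, hinv] at h1
    exact (Nat.eq_of_mul_eq_mul_left hn0 h1).symm
  have hrootsC : ∀ c : C, Even (orderOf c) → c ^ (orderOf c / 2) = t₀ := by
    intro c hc
    apply huC
    exact orderOf_pow_orderOf_div (orderOf_pos c).ne' hc.two_dvd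
  have hoddcount : Nat.card {y : G // Odd (orderOf y) ∧ Commute t y} = Nat.card {c : C // Odd (orderOf c)} := by
    rw [card_odd_commute ht, hroots (fun m => m % 4 = 2) (fun m hm => by
      rw [Nat.even_iff]; omega)]
    have h1 := card_odd_commute ht₀
    have h2 : Nat.card {c : C // Odd (orderOf c) ∧ Commute t₀ c} = Nat.card {c : C // Odd (orderOf c)} :=
      Nat.card_congr (Equiv.subtypeEquivRight (fun c => ⟨fun h => h.1, fun h => ⟨h, hcen c⟩⟩))
    have h3 : Nat.card {c : C // orderOf c % 4 = 2 ∧ c ^ (orderOf c / 2) = t₀} = Nat.card {c : C // orderOf c % 4 = 2} :=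
      Nat.card_congr (Equiv.subtypeEquivRight (fun c => ⟨fun h => h.1, fun h => ⟨h, hrootsC c (by
        rw [Nat.even_iff]; omega)⟩⟩))
    rw [← h2, h1, h3]
  -- every even order element of the centralizer has `t` as a power
  have hcard3 : Nat.card {y : G // Odd (orderOf y) ∧ Commute t y} +
      Nat.card {x : G // Even (orderOf x) ∧ x ^ (orderOf x / 2) = t} = Nat.card {y : G // Commute t y} := by
    rw [hoddcount, hroots (fun m => Even m) (fun m hm => hm)]
    have h1 : Nat.card {y : G // Commute t y} = Nat.card C := by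
      rw [← hMcard]
      exact Nat.card_congr (Equiv.subtypeEquivRight (fun y => (hMmem y).symm))
    rw [h1]
    have h2 : {c : C // Odd (orderOf c)} ≃ {c : C // ¬ Even (orderOf c)} :=
      Equiv.subtypeEquivRight (fun c => Nat.not_even_iff_odd.symm)
    rw [Nat.card_congr h2, add_comm, ← Nat.card_sum]
    exact Nat.card_congr (Equiv.sumCompl (fun c : C => Even (orderOf c)))
  have hpow : ∀ y : G, Commute t y → Even (orderOf y) → y ^ (orderOf y / 2) = t := by
    set A := {y : G | Odd (orderOf y) ∧ Commute t y} with hA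
    set B := {x : G | Even (orderOf x) ∧ x ^ (orderOf x / 2) = t} with hB
    have hd : Disjoint A B := by
      rw [Set.disjoint_left]
      rintro y ⟨h1, -⟩ ⟨h2, -⟩
      exact (Nat.not_even_iff_odd.2 h1) h2
    have hAB : A ∪ B = {y : G | Commute t y} := by
      apply Set.eq_of_subset_of_ncard_le _ _ (Set.toFinite _)
      · rintro y (h | h)
        · exact h.2
        · change Commute t y
          rw [← h.2]
          exact (Commute.refl y).pow_left _
      · rw [Set.ncard_union_eq hd (Set.toFinite _) (Set.toFinite _), ← Nat.card_coe_set_eq, ← Nat.card_coe_set_eq,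
          ← Nat.card_coe_set_eq]
        exact hcard3.ge
    intro y hy hy2
    have h1 : y ∈ A ∪ B := by rw [hAB]; exact hy
    rcases h1 with h1 | h1
    · exact ((Nat.not_even_iff_odd.2 h1.1) hy2).elim
    · exact h1.2
  have hiso : ∀ s : G, orderOf s = 2 → Commute t s → s = t := by
    intro s hs hc
    have h1 := hpow s hc (by rw [hs]; exact even_two)
    rw [hs] at h1
    simpa using h1
  -- Z*
  have hz : ∀ g : G, t * g * t⁻¹ * g⁻¹ ∈ pPrimeCore 2 G := by
    obtain ⟨P, hP⟩ := (IsPGroup.of_card (p := 2) (n := 1) (G := Subgroup.zpowers t) (by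
      rw [Nat.card_zpowers, ht, pow_one])).exists_le_sylow
    have htP : t ∈ P := hP (Subgroup.mem_zpowers t)
    have hnt : Nontrivial (P : Subgroup G) := ⟨⟨⟨t, htP⟩, 1, fun h => ht1 (congrArg Subtype.val h)⟩⟩
    have hcnt : Nontrivial (Subgroup.center (P : Subgroup G)) := P.isPGroup'.center_nontrivial
    have h2c : 2 ∣ Nat.card (Subgroup.center (P : Subgroup G)) := by
      obtain ⟨k, hk⟩ := (P.isPGroup'.to_subgroup (Subgroup.center (P : Subgroup G))).exists_card_eq
      rw [hk]
      rcases k with _ | k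
      · rw [pow_zero] at hk
        have := Finite.one_lt_card (α := Subgroup.center (P : Subgroup G))
        omega
      · exact dvd_pow_self 2 (by omega)
    obtain ⟨z, hz⟩ := exists_prime_orderOf_dvd_card' 2 h2c
    have hzo : orderOf ((z : (P : Subgroup G)) : G) = 2 := by
      rw [Subgroup.orderOf_coe, Subgroup.orderOf_coe, hz]
    have hzcomm : ∀ v ∈ P, Commute v ((z : (P : Subgroup G)) : G) := by
      intro v hv
      have := Subgroup.mem_center_iff.1 z.2 ⟨v, hv⟩
      exact congrArg Subtype.val this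
    have hzt : ((z : (P : Subgroup G)) : G) = t := hiso _ hzo (hzcomm t htP)
    apply Cfsg.Agent.H4.zstar_uniq P ht
    intro v hv hvo
    apply hiso v hvo
    have := (hzcomm v hv).symm
    rwa [hzt] at this
  set O := pPrimeCore 2 G with hO
  have hOodd : Odd (Nat.card O) := Cfsg.Agent.H4.odd_card_pPrimeCore_two
  have hOsol : Group.IsSolvable O := solvable_of_odd hOodd
  have hOn : O.Normal := inferInstance
  have hfrat : ∀ g : G, ∃ k ∈ O, k⁻¹ * g ∈ M := by
    intro g
    obtain ⟨k, hk, hkg⟩ := Cfsg.Agent.Cop.sz_rel (N := O) (A := Subgroup.zpowers t) (B := Subgroup.zpowers (g * t * g⁻¹))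
      (by rw [Subgroup.normalizer_eq_top]; exact le_top)
      (by
        rw [Subgroup.zpowers_le]
        have h1 : g * t * g⁻¹ = (t * g * t⁻¹ * g⁻¹)⁻¹ * t := by group
        rw [h1]
        exact Subgroup.mul_mem_sup (O.inv_mem (hz g)) (Subgroup.mem_zpowers t))
      (by rw [Nat.card_zpowers, Nat.card_zpowers, ord_conj])
      (by rw [Nat.card_zpowers, ht]; exact Nat.coprime_two_right.2 hOodd)
      (Or.inl hOsol)
    refine ⟨k, hk, ?_⟩
    have h1 : k * t * k⁻¹ ∈ Subgroup.zpowers (g * t * g⁻¹) := by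
      rw [← hkg]; exact conj_mem_conj_smul (Subgroup.mem_zpowers t)
    have h2 : k * t * k⁻¹ = g * t * g⁻¹ := by
      have h3 := hfpf
      obtain ⟨i, hi⟩ := Subgroup.mem_zpowers_iff.1 h1
      have hgo : orderOf (g * t * g⁻¹) = 2 := by rw [ord_conj, ht]
      rcases Int.even_or_odd i with ⟨j, hj⟩ | ⟨j, hj⟩
      · exfalso
        have h4 : (g * t * g⁻¹) ^ i = 1 := by
          rw [hj, ← two_mul, zpow_mul]
          have : (g * t * g⁻¹) ^ (2 : ℤ) = 1 := by
            have := pow_orderOf_eq_one (g * t * g⁻¹)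
            rw [hgo] at this
            exact_mod_cast this
          rw [this, one_zpow]
        rw [h4] at hi
        have : orderOf (k * t * k⁻¹) = 2 := by rw [ord_conj, ht]
        rw [← hi, orderOf_one] at this
        omega
      · rw [← hi, hj, zpow_add, zpow_mul]
        have : (g * t * g⁻¹) ^ (2 : ℤ) = 1 := by
          have := pow_orderOf_eq_one (g * t * g⁻¹)
          rw [hgo] at this
          exact_mod_cast this
        rw [this, one_zpow, one_mul, zpow_one]
    rw [hMmem]
    change t * (k⁻¹ * g) = k⁻¹ * g * t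
    have h5 : k⁻¹ * (k * t * k⁻¹) * g = k⁻¹ * (g * t * g⁻¹) * g := by rw [h2]
    simpa [mul_assoc] using h5
  -- the index divides |O|
  have hOn : C.index ∣ Nat.card O := by
    have h1 : Function.Surjective ((QuotientGroup.mk' O).comp M.subtype) := by
      intro a
      obtain ⟨g, rfl⟩ := QuotientGroup.mk_surjective a
      obtain ⟨k, hk, hkg⟩ := hfrat g
      refine ⟨⟨k⁻¹ * g, hkg⟩, ?_⟩
      change ((k⁻¹ * g : G) : G ⧸ O) = (g : G ⧸ O)
      rw [QuotientGroup.eq]
      have : (k⁻¹ * g)⁻¹ * g = g⁻¹ * k * g⁻¹⁻¹ := by group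
      rw [this]
      exact hOn.conj_mem k hk g⁻¹
    have h2 : Nat.card (G ⧸ O) ∣ Nat.card C := by
      rw [← hMcard]
      exact Subgroup.card_dvd_of_surjective _ h1
    have h3 : Nat.card (G ⧸ O) * Nat.card O = C.index * Nat.card C := by
      rw [← hcard]; exact O.index_mul_card
    have h4 : C.index ∣ Nat.card (G ⧸ O) * Nat.card O := by rw [h3]; exact Dvd.intro _ rfl
    exact (Nat.Coprime.coprime_dvd_right h2 hcop.symm).dvd_of_dvd_mul_left h4
  obtain ⟨m, hm⟩ := hOn
  have hmC : m ∣ Nat.card C := by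
    have h1 : Nat.card O ∣ C.index * Nat.card C := by rw [← hcard]; exact Subgroup.card_subgroup_dvd_card O
    rw [hm] at h1
    exact Nat.dvd_of_mul_dvd_mul_left hn0 h1
  obtain ⟨K, hKO, hK⟩ := Cfsg.Agent.Cop.hall_rel_exists (L := O) hm
    (Nat.Coprime.coprime_dvd_right hmC hcop.symm) hOsol
  have hKset : (K : Set G) = {x : G | orderOf x ∣ C.index} := by
    apply Set.eq_of_subset_of_ncard_le _ _ (Set.toFinite _)
    · intro x hx
      have := orderOf_dvd_natCard (⟨x, hx⟩ : K)
      rw [Subgroup.orderOf_mk, hK] at this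
      exact this
    · rw [← Nat.card_coe_set_eq, ← Nat.card_coe_set_eq]
      change Nat.card {x : G // orderOf x ∣ C.index} ≤ Nat.card K
      rw [hK]
      refine le_of_le_of_eq ?_ (card_frobeniusKernel hC)
      have h1 : Nat.card {x : G // orderOf x ∣ C.index} = Nat.card {x : F // orderOf x ∣ C.index} :=
        (Nat.card_congr (e.subtypeEquiv (fun x => by rw [he]))).symm
      rw [h1]
      refine Nat.card_le_card_of_injective (fun x : {x : F // orderOf x ∣ C.index} => (⟨x.1, ?_⟩ : frobeniusKernel C)) ?_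
      · rcases order_dvd hC x.1 with h | h
        · exact h.1
        · have h2 := Nat.dvd_gcd h.2 x.2
          rw [hcop] at h2
          have h3 : x.1 = 1 := orderOf_eq_one_iff.1 (Nat.dvd_one.1 h2)
          rw [h3]; exact one_mem_frobeniusKernel C
      · intro x y hxy
        simp only [Subtype.mk.injEq] at hxy
        exact Subtype.ext hxy
  haveI hKn : K.Normal := by
    constructor
    intro x hx g
    have h1 : x ∈ (K : Set G) := hx
    rw [hKset] at h1
    have h2 : g * x * g⁻¹ ∈ (K : Set G) := by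
      rw [hKset]
      change orderOf (g * x * g⁻¹) ∣ C.index
      rw [ord_conj]; exact h1
    exact h2
  have hcompl : Subgroup.IsComplement' K M := by
    apply Subgroup.isComplement'_of_coprime
    · rw [hK, hMcard, hcard]
    · rw [hK, hMcard]; exact hcop.symm
  have hM1 : M ≠ ⊥ := by
    intro h
    rw [h, Subgroup.card_bot] at hMcard
    exact hC.1 (Subgroup.card_eq_one.1 hMcard.symm)
  have hK1 : K ≠ ⊥ := by
    intro h
    rw [h, Subgroup.card_bot] at hK
    exact hC.2.1 (Subgroup.index_eq_one.1 hK.symm)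
  refine ⟨M, (isFrobeniusComplement_iff_fpf hcompl hK1 hM1).2 ?_, hMcard⟩
  intro x hx hx1
  rw [eq_bot_iff]
  intro k hk0
  obtain ⟨hk, hkx⟩ := Subgroup.mem_inf.1 hk0
  rw [Subgroup.mem_bot]
  have hc : Commute x k := (Subgroup.mem_centralizer_iff.1 hkx x rfl)
  have ho1 : orderOf k ∣ C.index := by
    have : k ∈ (K : Set G) := hk
    rw [hKset] at this
    exact this
  have ho2 : orderOf x ∣ Nat.card C := by
    rw [← hMcard]
    have := orderOf_dvd_natCard (⟨x, hx⟩ : M)
    rwa [Subgroup.orderOf_mk] at this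
  have hco : (orderOf x).Coprime (orderOf k) :=
    Nat.Coprime.coprime_dvd_left ho2 (Nat.Coprime.coprime_dvd_right ho1 hcop)
  have ho3 := hc.orderOf_mul_eq_mul_orderOf_of_coprime hco
  rcases hdiv (x * k) with h | h
  · exfalso
    rw [ho3] at h
    have h1 : orderOf x ∣ C.index := (Dvd.intro _ rfl).trans h
    have h2 := Nat.dvd_gcd ho2 h1
    rw [hcop] at h2
    exact hx1 (orderOf_eq_one_iff.1 (Nat.dvd_one.1 h2))
  · rw [ho3] at h
    have h1 : orderOf k ∣ Nat.card C := (Dvd.intro_left _ rfl).trans h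
    have h2 := Nat.dvd_gcd h1 ho1
    rw [hcop] at h2
    exact orderOf_eq_one_iff.1 (Nat.dvd_one.1 h2)

end caseA

end Cfsg.Agent.FT
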