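import Cfsg.Agent.FT.OrdC
import Cfsg.Agent.FC.Struct4
import Cfsg.Agent.S0042

/-!
Solvability of a Frobenius complement can be read off from the number of elements of order three.
-/

set_option autoImplicit false
set_option linter.unusedSectionVars false

namespace Cfsg.Agent.FT

open scoped Pointwise
open Cfsg Cfsg.Agent.Frob Cfsg.Agent.FC

universe u v

theorem card_cube_le {X : Type u} [Group X] [Finite X] (h : HasFPFModule X) (hs : Group.IsSolvable X) :
    Nat.card {z : X // z * z * z = 1} ≤ 17 := by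
  classical
  obtain ⟨n, hn, ⟨D⟩⟩ := exists_fpData (hasMat_of_hasFPFModule h)
  haveI : Nonempty (Fin n) := ⟨⟨0, hn⟩⟩
  rcases four_cases D with h1 | ⟨x, hx, hx1, hu⟩ | ⟨Φ, hS⟩ | ⟨⟨e⟩⟩
  · have : Subsingleton {z : X // z * z * z = 1} := ⟨fun a b => Subtype.ext ((h1 _ a.2).trans (h1 _ b.2).symm)⟩
    exact (Finite.card_le_one_iff_subsingleton.2 this).trans (by norm_num)
  · have h2 : Nat.card {z : X // z * z * z = 1} ≤ Nat.card (Subgroup.zpowers x) := by
      apply Nat.card_le_card_of_injective (fun z : {z : X // z * z * z = 1} => (⟨z.1, hu _ z.2⟩ : Subgroup.zpowers x))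
      intro a b hab
      simp only [Subtype.mk.injEq] at hab
      exact Subtype.ext hab
    have h3 : orderOf x ∣ 3 := orderOf_dvd_of_pow_eq_one (by rw [pow_succ, pow_two]; exact hx)
    rw [Nat.card_zpowers] at h2
    have := Nat.le_of_dvd (by norm_num) h3
    omega
  · have h2 : {z : X | z * z * z = 1} ⊆ (Φ.S : Set X) \ ((Φ.Q : Set X) \ {1}) := by
      intro z hz
      refine ⟨hS z hz, ?_⟩
      rintro ⟨hzQ, hz1⟩
      apply hz1
      have h8 := orderOf_dvd_natCard (⟨z, hzQ⟩ : Φ.Q)
      rw [Subgroup.orderOf_mk, Φ.card_Q] at h8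
      have h3 : orderOf z ∣ 3 := orderOf_dvd_of_pow_eq_one (by rw [pow_succ, pow_two]; exact hz)
      have h1 := Nat.dvd_gcd h8 h3
      norm_num at h1
      exact h1
    have h3 := Set.ncard_le_ncard h2 (Set.toFinite _)
    rw [Set.ncard_sdiff (Set.sdiff_subset.trans Φ.Q_le_S), Set.ncard_sdiff_singleton_of_mem Φ.Q.one_mem] at h3
    have h4 : (Φ.S : Set X).ncard = 24 := by rw [← Nat.card_coe_set_eq]; exact Φ.card_S
    have h5 : (Φ.Q : Set X).ncard = 8 := by rw [← Nat.card_coe_set_eq]; exact Φ.card_Q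
    rw [h4, h5] at h3
    rw [← Nat.card_coe_set_eq] at h3
    exact h3
  · exfalso
    apply sl5_not_solvable
    haveI := hs
    exact Group.isSolvable_of_isSolvable_injective (f := ((K3 X).subtype.comp e.symm.toMonoidHom))
      ((K3 X).subtype_injective.comp e.symm.injective)

theorem sl5_count : 20 ≤ Nat.card {z : Matrix.SpecialLinearGroup (Fin 2) (ZMod 5) // z * z * z = 1} := by
  have hd : ∀ a : ZMod 5, ∀ b : Fin 4, Matrix.det !![a, (b.val + 1 : ZMod 5); (a * (-1 - a) - 1) * (b.val + 1 : ZMod 5) ^ 3, -1 - a] = 1 := by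
    decide +kernel
  have h3 : ∀ a : ZMod 5, ∀ b : Fin 4,
      (!![a, (b.val + 1 : ZMod 5); (a * (-1 - a) - 1) * (b.val + 1 : ZMod 5) ^ 3, -1 - a] : Matrix (Fin 2) (Fin 2) (ZMod 5)) *
      !![a, (b.val + 1 : ZMod 5); (a * (-1 - a) - 1) * (b.val + 1 : ZMod 5) ^ 3, -1 - a] *
      !![a, (b.val + 1 : ZMod 5); (a * (-1 - a) - 1) * (b.val + 1 : ZMod 5) ^ 3, -1 - a] = 1 := by
    decide +kernel
  let f : ZMod 5 × Fin 4 → {z : Matrix.SpecialLinearGroup (Fin 2) (ZMod 5) // z * z * z = 1} := fun p =>
    ⟨⟨!![p.1, (p.2.val + 1 : ZMod 5); (p.1 * (-1 - p.1) - 1) * (p.2.val + 1 : ZMod 5) ^ 3, -1 - p.1], hd p.1 p.2⟩,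
      Subtype.ext (h3 p.1 p.2)⟩
  have hf : Function.Injective f := by
    rintro ⟨a, b⟩ ⟨c, d⟩ hab
    have h1 := congrArg (fun z : {z : Matrix.SpecialLinearGroup (Fin 2) (ZMod 5) // z * z * z = 1} =>
      ((z.1 : Matrix (Fin 2) (Fin 2) (ZMod 5)) 0 0, (z.1 : Matrix (Fin 2) (Fin 2) (ZMod 5)) 0 1)) hab
    simp only [f, Prod.mk.injEq] at h1
    obtain ⟨h2, h4⟩ := h1
    have h5 : a = c := h2
    have h6 : (b.val + 1 : ZMod 5) = (d.val + 1 : ZMod 5) := h4
    have h7 : ∀ b d : Fin 4, (b.val + 1 : ZMod 5) = (d.val + 1 : ZMod 5) → b = d := by decide +kernel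
    rw [h5, h7 b d h6]
  have := Nat.card_le_card_of_injective f hf
  rw [Nat.card_prod, Nat.card_eq_fintype_card, Nat.card_eq_fintype_card, ZMod.card, Fintype.card_fin] at this
  exact this

theorem le_card_cube {X : Type u} [Group X] [Finite X] (h : HasFPFModule X) (hs : ¬ Group.IsSolvable X) :
    20 ≤ Nat.card {z : X // z * z * z = 1} := by
  obtain ⟨e⟩ := K3_iso_of_not_solvable h hs
  refine sl5_count.trans ?_
  apply Nat.card_le_card_of_injective (fun z : {z : Matrix.SpecialLinearGroup (Fin 2) (ZMod 5) // z * z * z = 1} =>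
    (⟨((e.symm z.1 : K3 X) : X), by
      rw [← Subgroup.coe_mul, ← Subgroup.coe_mul, ← map_mul, ← map_mul, z.2, map_one]; rfl⟩ : {z : X // z * z * z = 1}))
  intro a b hab
  simp only [Subtype.mk.injEq] at hab
  exact Subtype.ext (e.symm.injective (Subtype.ext hab))

theorem card_cube_eq {X : Type u} [Group X] [Finite X] :
    Nat.card {z : X // z * z * z = 1} = 1 + Nat.card {z : X // orderOf z = 3} := by
  classical
  have h1 : {z : X | z * z * z = 1} = insert 1 {z : X | orderOf z = 3} := by
    ext z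
    constructor
    · intro hz
      have h3 : orderOf z ∣ 3 := orderOf_dvd_of_pow_eq_one (by rw [pow_succ, pow_two]; exact hz)
      rcases (Nat.dvd_prime Nat.prime_three).1 h3 with h | h
      · exact Or.inl (orderOf_eq_one_iff.1 h)
      · exact Or.inr h
    · rintro (rfl | h)
      · change (1 : X) * 1 * 1 = 1; simp
      · have := pow_orderOf_eq_one z
        rw [show orderOf z = 3 from h, pow_succ, pow_two] at this
        exact this
  have h2 : (1 : X) ∉ {z : X | orderOf z = 3} := by
    intro h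
    have : orderOf (1 : X) = 3 := h
    rw [orderOf_one] at this
    omega
  have h3 := congrArg Set.ncard h1
  rw [Set.ncard_insert_of_notMem h2 (Set.toFinite _), ← Nat.card_coe_set_eq, ← Nat.card_coe_set_eq] at h3
  rw [add_comm]
  exact h3

variable {F : Type u} {G : Type v} [Group F] [Finite F] [Group G] [Finite G] {C : Subgroup F} {M : Subgroup G}

theorem card_three_eq (hC : IsFrobeniusComplement C) (hM : IsFrobeniusComplement M) (hcard : Nat.card M = Nat.card C)
    (hT : ∀ m : ℕ, Nat.card {g : F // orderOf g = m} = Nat.card {h : G // orderOf h = m}) :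
    Nat.card {c : C // orderOf c = 3} = Nat.card {c : M // orderOf c = 3} := by
  obtain ⟨e, he⟩ := exists_equiv_order hT
  have hG : Nat.card G = Nat.card F := Nat.card_congr e.symm
  have hidx : M.index = C.index := by
    have h1 := M.index_mul_card
    have h2 := C.index_mul_card
    rw [hcard, hG] at h1
    rw [← h1] at h2
    exact (Nat.eq_of_mul_eq_mul_right Nat.card_pos h2).symm
  have hn0 : 0 < C.index := Nat.pos_of_ne_zero Subgroup.index_ne_zero_of_finite
  by_cases h3 : 3 ∣ Nat.card C
  · have h1 := card_order_eq hC (fun m => m = 3) (by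
      intro x hx hx3
      apply not_mem_kernel hC _ hx
      rw [hx3]
      intro h
      have := Nat.dvd_gcd (dvd_refl 3) h3
      rw [h] at this
      omega)
    have h2 := card_order_eq hM (fun m => m = 3) (by
      intro x hx hx3
      apply not_mem_kernel hM _ hx
      rw [hx3, hcard]
      intro h
      have := Nat.dvd_gcd (dvd_refl 3) h3
      rw [h] at this
      omega)
    rw [hT 3] at h1
    rw [h1, hidx] at h2
    exact Nat.eq_of_mul_eq_mul_left hn0 h2
  · have h1 : IsEmpty {c : C // orderOf c = 3} := ⟨fun c => h3 (c.2 ▸ orderOf_dvd_natCard c.1)⟩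
    have h2 : IsEmpty {c : M // orderOf c = 3} := ⟨fun c => h3 (hcard ▸ c.2 ▸ orderOf_dvd_natCard c.1)⟩
    rw [Nat.card_of_isEmpty, Nat.card_of_isEmpty]

theorem compl_solvable_iff (hC : IsFrobeniusComplement C) (hM : IsFrobeniusComplement M) (hcard : Nat.card M = Nat.card C)
    (hT : ∀ m : ℕ, Nat.card {g : F // orderOf g = m} = Nat.card {h : G // orderOf h = m}) :
    Group.IsSolvable C ↔ Group.IsSolvable M := by
  have h3 := card_three_eq hC hM hcard hT
  have hC' := Frob.IsFrobeniusComplement.hasFPFModule hC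
  have hM' := Frob.IsFrobeniusComplement.hasFPFModule hM
  have hc : Nat.card {z : C // z * z * z = 1} = Nat.card {z : M // z * z * z = 1} := by
    rw [card_cube_eq, card_cube_eq, h3]
  constructor
  · intro hs
    by_contra hn
    have h1 := card_cube_le hC' hs
    have h2 := le_card_cube hM' hn
    omega
  · intro hs
    by_contra hn
    have h1 := card_cube_le hM' hs
    have h2 := le_card_cube hC' hn
    omega

theorem solvable_iff_compl (hC : IsFrobeniusComplement C) : Group.IsSolvable F ↔ Group.IsSolvable C := by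
  constructor
  · intro h; infer_instance
  · intro h
    obtain ⟨N, hNk, hNn, hNil⟩ := Cfsg.Agent.S0042.result C hC
    obtain ⟨N', hNk', hNn', hc⟩ := Frob.exists_normal_complement hC
    have hNN : N = N' := SetLike.coe_injective (hNk.trans hNk'.symm)
    subst hNN
    have h1 : Group.IsSolvable N := inferInstance
    have h2 : Function.Surjective ((QuotientGroup.mk' N).comp C.subtype) := by
      intro a
      obtain ⟨g, rfl⟩ := QuotientGroup.mk_surjective a
      obtain ⟨⟨n, c⟩, hnc⟩ := hc.2 g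
      refine ⟨c, ?_⟩
      change ((c : F) : F ⧸ N) = (g : F ⧸ N)
      rw [QuotientGroup.eq, ← hnc]
      have : (c : F)⁻¹ * ((n : F) * (c : F)) = (c : F)⁻¹ * n * (c : F)⁻¹⁻¹ := by group
      change (c : F)⁻¹ * ((n : F) * (c : F)) ∈ N
      rw [this]
      exact hNn.conj_mem _ n.2 _
    have h3 : Group.IsSolvable (F ⧸ N) := Group.isSolvable_of_surjective h2
    exact FC.solvable_ext N h1 h3

end Cfsg.Agent.FT
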