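import Mathlib

/-! 2-homogeneous groups which are not 2-transitive. -/

set_option autoImplicit false

open scoped Pointwise

namespace Cfsg.Agent.FT

open Cfsg.Agent

section Hom

variable {α : Type*} [Fintype α] [DecidableEq α] {G : Subgroup (Equiv.Perm α)}

theorem th_pair (h2 : MulAction.IsPretransitive G (Set.powersetCard α 2)) {x y z w : α} (hxy : x ≠ y)
    (hzw : z ≠ w) : ∃ g : G, (g • x = z ∧ g • y = w) ∨ (g • x = w ∧ g • y = z) := by
  have hs : ({x, y} : Finset α) ∈ Set.powersetCard α 2 := by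
    rw [Set.powersetCard.mem_iff]; exact Finset.card_pair hxy
  have ht : ({z, w} : Finset α) ∈ Set.powersetCard α 2 := by
    rw [Set.powersetCard.mem_iff]; exact Finset.card_pair hzw
  obtain ⟨g, hg⟩ := h2.exists_smul_eq ⟨{x, y}, hs⟩ ⟨{z, w}, ht⟩
  refine ⟨g, ?_⟩
  have h3 : g • ({x, y} : Finset α) = {z, w} := congrArg Subtype.val hg
  have hx : g • x ∈ ({z, w} : Finset α) := by
    rw [← h3]; exact Finset.smul_mem_smul_finset (by simp)
  have hy : g • y ∈ ({z, w} : Finset α) := by
    rw [← h3]; exact Finset.smul_mem_smul_finset (by simp)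
  have hne : g • x ≠ g • y := fun h => hxy (smul_left_cancel g h)
  simp only [Finset.mem_insert, Finset.mem_singleton] at hx hy
  rcases hx with hx | hx <;> rcases hy with hy | hy
  · exact absurd (hx.trans hy.symm) hne
  · exact Or.inl ⟨hx, hy⟩
  · exact Or.inr ⟨hx, hy⟩
  · exact absurd (hx.trans hy.symm) hne

/-- an element swapping two points makes the group 2-transitive -/
theorem th_two_of_swap (h2 : MulAction.IsPretransitive G (Set.powersetCard α 2)) {a b : α} (hab : a ≠ b)
    (g : G) (h1 : g • a = b) (h1' : g • b = a) : MulAction.IsMultiplyPretransitive G α 2 := by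
  rw [MulAction.is_two_pretransitive_iff]
  intro x y z w hxy hzw
  have key : ∀ u v : α, u ≠ v → ∃ k : G, k • a = u ∧ k • b = v := by
    intro u v huv
    obtain ⟨k, hk | hk⟩ := th_pair h2 hab huv
    · exact ⟨k, hk⟩
    · refine ⟨k * g, ?_, ?_⟩
      · rw [mul_smul, h1, hk.2]
      · rw [mul_smul, h1', hk.1]
  obtain ⟨k, hk1, hk2⟩ := key x y hxy
  obtain ⟨l, hl1, hl2⟩ := key z w hzw
  refine ⟨l * k⁻¹, ?_, ?_⟩
  · rw [mul_smul, ← hk1, inv_smul_smul, hl1]
  · rw [mul_smul, ← hk2, inv_smul_smul, hl2]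

theorem th_odd (h2 : MulAction.IsPretransitive G (Set.powersetCard α 2))
    (hn2 : ¬ MulAction.IsMultiplyPretransitive G α 2) : Odd (Nat.card G) := by
  rw [← Nat.not_even_iff_odd, even_iff_two_dvd]
  intro h
  have : Fact (Nat.Prime 2) := ⟨Nat.prime_two⟩
  obtain ⟨g, hg⟩ := exists_prime_orderOf_dvd_card' 2 h
  have hg1 : g ≠ 1 := by
    rintro rfl; rw [orderOf_one] at hg; exact absurd hg (by norm_num)
  have hg2 : g * g = 1 := by rw [← pow_two, ← hg]; exact pow_orderOf_eq_one g
  have h3 : ∃ a : α, g • a ≠ a := by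
    by_contra hcon
    push Not at hcon
    exact hg1 (FaithfulSMul.eq_of_smul_eq_smul (α := α) (fun a => by rw [hcon a, one_smul]))
  obtain ⟨a, ha⟩ := h3
  exact hn2 (th_two_of_swap h2 ha.symm g rfl (by rw [← mul_smul, hg2, one_smul]))

theorem th_card (hne : G ≠ ⊥) (h2 : MulAction.IsPretransitive G (Set.powersetCard α 2))
    (hn2 : ¬ MulAction.IsMultiplyPretransitive G α 2) : 3 ≤ Fintype.card α := by
  by_contra hlt
  push Not at hlt
  obtain ⟨⟨g, hgG⟩, hg1'⟩ := Subgroup.ne_bot_iff_exists_ne_one.1 hne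
  have hg1 : g ≠ 1 := fun h => hg1' (Subtype.ext h)
  have h3 : ∃ a : α, g a ≠ a := by
    by_contra hcon
    push Not at hcon
    exact hg1 (Equiv.ext hcon)
  obtain ⟨a, ha⟩ := h3
  have h4 : g (g a) = a := by
    by_contra h5
    have h6 : g (g a) ≠ g a := fun h => ha (g.injective h)
    have h7 : ({a, g a, g (g a)} : Finset α).card = 3 := by
      rw [Finset.card_eq_three]
      exact ⟨a, g a, g (g a), Ne.symm ha, fun h => h5 h.symm, fun h => h6 h.symm, rfl⟩
    have h8 := Finset.card_le_univ ({a, g a, g (g a)} : Finset α)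
    omega
  exact hn2 (th_two_of_swap h2 (Ne.symm ha) ⟨g, hgG⟩ rfl h4)

theorem th_pretransitive (h3 : 3 ≤ Fintype.card α)
    (h2 : MulAction.IsPretransitive G (Set.powersetCard α 2)) : MulAction.IsPretransitive G α := by
  constructor
  intro x y
  by_contra hcon
  push Not at hcon
  have hxy : x ≠ y := fun h => hcon 1 (by rw [one_smul, h])
  have hyx : ∀ g : G, g • y ≠ x := fun g hg => hcon g⁻¹ (by rw [← hg, inv_smul_smul])
  obtain ⟨z, hz⟩ : ∃ z : α, z ∉ ({x, y} : Finset α) := by
    by_contra hall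
    push Not at hall
    have h4 : (Finset.univ : Finset α) ⊆ {x, y} := fun z _ => hall z
    have h5 := Finset.card_le_card h4
    have h6 : ({x, y} : Finset α).card ≤ 2 := Finset.card_le_two
    rw [Finset.card_univ] at h5
    omega
  simp only [Finset.mem_insert, Finset.mem_singleton, not_or] at hz
  obtain ⟨g, hg | hg⟩ := th_pair h2 (Ne.symm hz.1) hxy
  · -- g x = x, g z = y
    obtain ⟨k, hk | hk⟩ := th_pair h2 (Ne.symm hz.2) hxy
    · exact hyx k hk.1
    · -- k y = y, k z = x
      exact hcon (g * k⁻¹) (by rw [mul_smul, ← hk.2, inv_smul_smul, hg.2])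
  · exact hcon g hg.1

theorem th_primitive (h3 : 3 ≤ Fintype.card α)
    (h2 : MulAction.IsPretransitive G (Set.powersetCard α 2)) : MulAction.IsPreprimitive G α := by
  have := th_pretransitive h3 h2
  refine { isTrivialBlock_of_isBlock := ?_ }
  intro B hB
  by_contra hcon
  have h4 : ¬ B.Subsingleton ∧ B ≠ Set.univ := by
    constructor
    · intro h; exact hcon (Or.inl h)
    · intro h; exact hcon (Or.inr h)
  obtain ⟨h5, h6⟩ := h4
  rw [Set.not_subsingleton_iff] at h5
  obtain ⟨x, hx, y, hy, hxy⟩ := h5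
  obtain ⟨z, hz⟩ := (Set.ne_univ_iff_exists_notMem B).1 h6
  have hxz : x ≠ z := fun h => hz (h ▸ hx)
  have key : ∀ g : G, x ∈ g • B → z ∈ g • B → False := by
    intro g h7 h8
    rcases MulAction.isBlock_iff_smul_eq_or_disjoint.1 hB g with h9 | h9
    · exact hz (h9 ▸ h8)
    · exact Set.disjoint_left.1 h9 h7 hx
  obtain ⟨g, hg | hg⟩ := th_pair h2 hxy hxz
  · exact key g (hg.1 ▸ Set.smul_mem_smul_set hx) (hg.2 ▸ Set.smul_mem_smul_set hy)
  · exact key g (hg.2 ▸ Set.smul_mem_smul_set hy) (hg.1 ▸ Set.smul_mem_smul_set hx)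

theorem th_mod4 {p d : ℕ} (hp : p.Prime) (h3 : 3 ≤ Fintype.card α) (hc : Fintype.card α = p ^ d)
    (h2 : MulAction.IsPretransitive G (Set.powersetCard α 2)) (hodd : Odd (Nat.card G)) :
    Fintype.card α % 4 = 3 := by
  have h4 : (Fintype.card α).choose 2 ∣ Nat.card G := by
    have h5 : Nat.card (Set.powersetCard α 2) = (Fintype.card α).choose 2 := by
      rw [Set.powersetCard.card, Nat.card_eq_fintype_card]
    obtain ⟨a, b, hab⟩ := Fintype.exists_pair_of_one_lt_card (show 1 < Fintype.card α by omega)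
    have hs : ({a, b} : Finset α) ∈ Set.powersetCard α 2 := by
      rw [Set.powersetCard.mem_iff]; exact Finset.card_pair hab
    rw [← h5, ← MulAction.index_stabilizer_of_transitive G (⟨{a, b}, hs⟩ : Set.powersetCard α 2)]
    exact Subgroup.index_dvd_card _
  have h6 := Odd.of_dvd_nat hodd h4
  rw [Nat.choose_two_right] at h6
  set n := Fintype.card α with hn
  have h7 : n % 4 = 2 ∨ n % 4 = 3 := by
    have h8 : n * (n - 1) = 2 * (n * (n - 1) / 2) := by
      have := Nat.even_mul_pred_self n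
      rw [mul_comm 2]; exact (Nat.div_mul_cancel this.two_dvd).symm
    obtain ⟨k, hk⟩ := h6
    rw [hk] at h8
    have h9 : n % 4 < 4 := Nat.mod_lt _ (by norm_num)
    have h10 : (n * (n - 1)) % 4 = 2 := by omega
    obtain ⟨m, hm⟩ : ∃ m, n = m + 1 := ⟨n - 1, by omega⟩
    rw [hm, Nat.add_sub_cancel] at h10
    have h11 : m % 4 < 4 := Nat.mod_lt _ (by norm_num)
    rw [Nat.mul_mod, Nat.add_mod] at h10
    have : m % 4 = 0 ∨ m % 4 = 1 ∨ m % 4 = 2 ∨ m % 4 = 3 := by omega
    rcases this with h | h | h | h <;> rw [h] at h10 <;> simp at h10 <;> omega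
  rcases h7 with h7 | h7
  · exfalso
    have h8 : 2 ∣ n := by omega
    rw [hc] at h8
    have h9 := (Nat.prime_dvd_prime_iff_eq Nat.prime_two hp).1 (Nat.prime_two.dvd_of_dvd_pow h8)
    subst h9
    rcases Nat.lt_or_ge d 2 with h10 | h10
    · interval_cases d <;> simp at hc <;> omega
    · obtain ⟨e, rfl⟩ := Nat.exists_eq_add_of_le h10
      rw [pow_add] at hc
      omega
  · exact h7

end Hom

end Cfsg.Agent.FT
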